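import Mathlib
import Cfsg.Agent.Lib.Helper13.Schmidt
import Cfsg.Agent.Lib.Helper13.Basic

set_option autoImplicit false

namespace Cfsg.Agent.Lib.Helper13

universe u
variable {G : Type u} [Group G]

/-- **Schmidt**: a minimal non-nilpotent finite group is solvable. -/
theorem mnn_isSolvable [Finite G] (hG : Cfsg.IsMinimalNonNilpotent G) : Group.IsSolvable G := by
  obtain ⟨p, q, hp, hq, hpq, P, Q, hcyc, hQn, htop⟩ := schmidt hG
  have : Fact q.Prime := ⟨hq⟩
  have h1 : Group.IsSolvable (Q : Subgroup G) := by
    have := Q.isPGroup'.isNilpotent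
    infer_instance
  have hsurj : Function.Surjective
      ((QuotientGroup.mk' (Q : Subgroup G)).comp (P : Subgroup G).subtype) := by
    intro g
    obtain ⟨g, rfl⟩ := QuotientGroup.mk'_surjective _ g
    have hg : g ∈ (P : Subgroup G) ⊔ Q := by rw [htop]; trivial
    rw [Subgroup.mem_sup_of_normal_right] at hg
    obtain ⟨u, hu, y, hy, rfl⟩ := hg
    refine ⟨⟨u, hu⟩, ?_⟩
    simp only [MonoidHom.comp_apply, Subgroup.subtype_apply, QuotientGroup.mk'_apply]
    rw [QuotientGroup.eq]
    simpa using hy
  have h2 : Group.IsSolvable (G ⧸ (Q : Subgroup G)) := by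
    have := isCyclic_of_surjective _ hsurj
    let _ : CommGroup (G ⧸ (Q : Subgroup G)) := IsCyclic.commGroup
    infer_instance
  exact Group.isSolvable_of_ker_le_range (Q : Subgroup G).subtype (QuotientGroup.mk' (Q : Subgroup G))
    (by rw [QuotientGroup.ker_mk', Subgroup.range_subtype])

/-- A finite group all of whose proper subgroups are nilpotent is solvable. -/
theorem isSolvable_of_proper_nilpotent [Finite G]
    (h : ∀ H : Subgroup G, H ≠ ⊤ → Group.IsNilpotent H) : Group.IsSolvable G := by
  by_cases hn : Group.IsNilpotent G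
  · infer_instance
  · exact mnn_isSolvable ⟨hn, h⟩

/-- A normal coatom has prime index. -/
theorem prime_index_of_normal_coatom [Finite G] (M : Subgroup G) [M.Normal] (hM : IsCoatom M) :
    M.index.Prime := by
  have hne : M.index ≠ 1 := by
    rw [Ne, Subgroup.index_eq_one]; exact hM.1
  obtain ⟨q, hq, hqd⟩ := Nat.exists_prime_and_dvd hne
  have : Fact q.Prime := ⟨hq⟩
  rw [Subgroup.index_eq_card] at hqd
  obtain ⟨x, hx⟩ := exists_prime_orderOf_dvd_card' (G := G ⧸ M) q hqd
  have h1 : M ≤ (Subgroup.zpowers x).comap (QuotientGroup.mk' M) := by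
    intro m hm
    rw [Subgroup.mem_comap, QuotientGroup.mk'_apply, (QuotientGroup.eq_one_iff m).mpr hm]
    exact Subgroup.one_mem _
  have h2 : (Subgroup.zpowers x).comap (QuotientGroup.mk' M) = ⊤ := by
    apply hM.2
    refine lt_of_le_of_ne h1 ?_
    intro heq
    obtain ⟨g, rfl⟩ := QuotientGroup.mk'_surjective M x
    have hg : g ∈ (Subgroup.zpowers (QuotientGroup.mk' M g)).comap (QuotientGroup.mk' M) :=
      Subgroup.mem_zpowers _
    rw [← heq, ← QuotientGroup.eq_one_iff] at hg
    rw [QuotientGroup.mk'_apply, hg, orderOf_one] at hx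
    exact hq.one_lt.ne hx
  have h3 : Subgroup.zpowers x = ⊤ := by
    rw [← Subgroup.map_comap_eq_self_of_surjective (QuotientGroup.mk'_surjective M)
      (Subgroup.zpowers x), h2, Subgroup.map_top_of_surjective _ (QuotientGroup.mk'_surjective M)]
  rw [Subgroup.index_eq_card, ← Subgroup.card_top (G := G ⧸ M), ← h3, Nat.card_zpowers, hx]
  exact hq

/-- A nontrivial finite solvable group has a normal subgroup of prime index. -/
theorem exists_normal_prime_index [Finite G] [Nontrivial G] (hG : Group.IsSolvable G) :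
    ∃ M : Subgroup G, M.Normal ∧ M.index.Prime := by
  have h1 : commutator G ≠ ⊤ := (Group.IsSolvable.commutator_lt_top_of_nontrivial G).ne
  obtain h2 | ⟨M, hM, hle⟩ := eq_top_or_exists_le_coatom (commutator G)
  · exact absurd h2 h1
  have hMn : M.Normal := by
    constructor
    intro m hm g
    have h3 : g * m * g⁻¹ = (g * m * g⁻¹ * m⁻¹) * m := by group
    rw [h3]
    exact M.mul_mem (hle (Subgroup.commutator_mem_commutator (Subgroup.mem_top g)
      (Subgroup.mem_top m))) hm
  exact ⟨M, hMn, prime_index_of_normal_coatom M hM⟩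

end Cfsg.Agent.Lib.Helper13
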