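import Mathlib
import Cfsg.Prelude.Def_SolvableStructure
import Cfsg.Agent.Lib.Helper13.Schmidt
import Cfsg.Agent.Lib.Helper12.Card
import Cfsg.Agent.Lib.Helper40.Cores
import Cfsg.Agent.S0543
import Cfsg.Agent.S0544
import Cfsg.Agent.S0546

set_option autoImplicit false

namespace Cfsg.Agent.Lib.Helper13

open Cfsg.Agent.Lib.Helper31
open scoped Pointwise

universe u
variable {G : Type u} [Group G]

/-- the subgroup generated by the elements of `H` of order prime to `p` -/
def pcPart (H : Subgroup G) (p : ℕ) : Subgroup G :=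
  Subgroup.closure {x | x ∈ H ∧ (orderOf x).Coprime p}

/-- the subgroup generated by the `p`-elements of `H` -/
def ppPart (H : Subgroup G) (p : ℕ) : Subgroup G :=
  Subgroup.closure {x | x ∈ H ∧ ∃ k : ℕ, orderOf x = p ^ k}

theorem orderOf_conj' (g x : G) : orderOf (g * x * g⁻¹) = orderOf x := by
  have := orderOf_injective (MulAut.conj g).toMonoidHom (MulAut.conj g).injective x
  simpa using this

theorem map_conj_closure_le (S : Set G) (g : G) (h : ∀ x ∈ S, g * x * g⁻¹ ∈ S) :
    (Subgroup.closure S).map (MulAut.conj g).toMonoidHom ≤ Subgroup.closure S := by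
  rw [MonoidHom.map_closure, Subgroup.closure_le]
  rintro _ ⟨x, hx, rfl⟩
  exact Subgroup.subset_closure (h x hx)

theorem mem_normalizer_closure [Finite G] (S : Set G) (g : G) (h : ∀ x ∈ S, g * x * g⁻¹ ∈ S) :
    g ∈ Subgroup.normalizer ((Subgroup.closure S : Subgroup G) : Set G) := by
  rw [Subgroup.mem_normalizer_iff_map_conj_eq]
  apply Subgroup.eq_of_le_of_card_ge (map_conj_closure_le S g h)
  rw [Subgroup.card_map_of_injective (MulAut.conj g).injective]

theorem mem_normalizer_pcPart [Finite G] (H : Subgroup G) (p : ℕ) (g : G)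
    (hg : g ∈ Subgroup.normalizer (H : Set G)) :
    g ∈ Subgroup.normalizer ((pcPart H p : Subgroup G) : Set G) := by
  apply mem_normalizer_closure
  rintro x ⟨hx, hxo⟩
  exact ⟨(Subgroup.mem_normalizer_iff.mp hg x).mp hx, by rw [orderOf_conj']; exact hxo⟩

theorem mem_normalizer_ppPart [Finite G] (H : Subgroup G) (p : ℕ) (g : G)
    (hg : g ∈ Subgroup.normalizer (H : Set G)) :
    g ∈ Subgroup.normalizer ((ppPart H p : Subgroup G) : Set G) := by
  apply mem_normalizer_closure
  rintro x ⟨hx, hxo⟩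
  exact ⟨(Subgroup.mem_normalizer_iff.mp hg x).mp hx, by rw [orderOf_conj']; exact hxo⟩

theorem pcPart_normal [Finite G] (H : Subgroup G) [H.Normal] (p : ℕ) : (pcPart H p).Normal := by
  rw [← Subgroup.normalizer_eq_top_iff, eq_top_iff]
  intro g _
  exact mem_normalizer_pcPart H p g (by rw [Subgroup.normalizer_eq_top]; trivial)

theorem ppPart_normal [Finite G] (H : Subgroup G) [H.Normal] (p : ℕ) : (ppPart H p).Normal := by
  rw [← Subgroup.normalizer_eq_top_iff, eq_top_iff]
  intro g _
  exact mem_normalizer_ppPart H p g (by rw [Subgroup.normalizer_eq_top]; trivial)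

theorem card_pcPart_coprime [Finite G] (H : Subgroup G) (hH : Group.IsNilpotent H) (p : ℕ)
    [Fact p.Prime] : (Nat.card (pcPart H p)).Coprime p := by
  obtain ⟨N, hNn, hNc, j, hj⟩ :=
    Cfsg.Agent.Lib.Helper2.hasNormalPComplement_iff_exists.mp (hnpc_of_nilpotent hH p)
  have hle : pcPart H p ≤ N.map H.subtype := by
    unfold pcPart
    rw [Subgroup.closure_le]
    rintro x ⟨hx, hxo⟩
    exact ⟨⟨x, hx⟩, Cfsg.Agent.Lib.Helper58.mem_of_coprime_order N j hj _
      (by rw [Subgroup.orderOf_mk]; exact hxo), rfl⟩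
  have h1 := Subgroup.card_dvd_of_le hle
  rw [Subgroup.card_map_of_injective H.subtype_injective] at h1
  exact Nat.Coprime.coprime_dvd_left h1 hNc

theorem isPGroup_ppPart [Finite G] (H : Subgroup G) (hH : Group.IsNilpotent H) (p : ℕ)
    [Fact p.Prime] : IsPGroup p (ppPart H p) := by
  obtain ⟨P⟩ : Nonempty (Sylow p H) := inferInstance
  have hall : ∀ (q : ℕ) (_ : Fact q.Prime) (Q : Sylow q H), (Q : Subgroup H).Normal :=
    ((Group.isNilpotent_of_finite_tfae (G := H)).out 0 3).mp hH
  have hPn : (P : Subgroup H).Normal := hall p inferInstance P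
  have hle : ppPart H p ≤ (P : Subgroup H).map H.subtype := by
    unfold ppPart
    rw [Subgroup.closure_le]
    rintro x ⟨hx, hxo⟩
    exact ⟨⟨x, hx⟩, mem_sylow_of_normal P _ (by rw [Subgroup.orderOf_mk]; exact hxo), rfl⟩
  exact (P.isPGroup'.map H.subtype).to_le hle

/-- index `p^j` and order prime to `p` gives the exact power. -/
theorem index_eq_pow_factorization [Finite G] (K : Subgroup G) (p : ℕ) (hp : p.Prime)
    (hc : (Nat.card K).Coprime p) (j : ℕ) (hj : K.index = p ^ j) :
    K.index = p ^ (Nat.card G).factorization p := by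
  have h1 := K.card_mul_index
  rw [hj] at h1
  rw [hj, ← h1, Nat.factorization_mul Nat.card_pos.ne' (pow_ne_zero _ hp.ne_zero)]
  have h2 : (Nat.card K).factorization p = 0 :=
    Nat.factorization_eq_zero_of_not_dvd ((Nat.Prime.coprime_iff_not_dvd hp).mp hc.symm)
  simp [h2, hp.factorization_self]

/-- If `G = C F` with `C` nilpotent and `F` a nilpotent normal subgroup, then the subgroups
`C_{p'} F_{p'}` form a Hall complement system. -/
theorem isComplementSystem_pcPart [Finite G] (F : Subgroup G) [F.Normal]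
    (hF : Group.IsNilpotent F) (C : Subgroup G) (hC : Group.IsNilpotent C) (hCF : C ⊔ F = ⊤) :
    Cfsg.IsComplementSystem (fun p : Nat.Primes => pcPart C p ⊔ pcPart F p) := by
  intro p
  have hp : (p : ℕ).Prime := p.2
  have : Fact (p : ℕ).Prime := ⟨hp⟩
  have hn1 := pcPart_normal F (p : ℕ)
  have hn2 := ppPart_normal F (p : ℕ)
  have hcop : (Nat.card (pcPart C p ⊔ pcPart F p : Subgroup G)).Coprime p := by
    have h1 := Cfsg.Agent.Lib.Helper40.card_sup_dvd (pcPart F p) (pcPart C p)
    rw [sup_comm] at h1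
    exact Nat.Coprime.coprime_dvd_left h1
      (Nat.Coprime.mul_left (card_pcPart_coprime F hF p) (card_pcPart_coprime C hC p))
  have hU : IsPGroup p (ppPart C p ⊔ ppPart F p : Subgroup G) :=
    (isPGroup_ppPart C hC p).to_sup_of_normal_right (isPGroup_ppPart F hF p)
  have hmul : ((ppPart C p ⊔ ppPart F p : Subgroup G) : Set G) *
      ((pcPart C p ⊔ pcPart F p : Subgroup G) : Set G) = Set.univ := by
    rw [Set.eq_univ_iff_forall]
    intro g
    have hg : g ∈ C ⊔ F := by rw [hCF]; trivial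
    rw [Subgroup.mem_sup_of_normal_right] at hg
    obtain ⟨c, hc, f, hf, rfl⟩ := hg
    obtain ⟨a₁, ha₁, b₁, hb₁, e₁, hao₁, hbo₁⟩ :=
      exists_prime_decomp (p : ℕ) c (isOfFinOrder_of_finite _)
    obtain ⟨a₂, ha₂, b₂, hb₂, e₂, hao₂, hbo₂⟩ :=
      exists_prime_decomp (p : ℕ) f (isOfFinOrder_of_finite _)
    have hz₁ : Subgroup.zpowers c ≤ C := by rw [Subgroup.zpowers_le]; exact hc
    have hz₂ : Subgroup.zpowers f ≤ F := by rw [Subgroup.zpowers_le]; exact hf
    refine ⟨a₁ * (b₁ * a₂ * b₁⁻¹), ?_, b₁ * b₂, ?_, ?_⟩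
    · apply Subgroup.mul_mem
      · exact Subgroup.mem_sup_left (Subgroup.subset_closure ⟨hz₁ ha₁, hao₁⟩)
      · exact Subgroup.mem_sup_right
          (hn2.conj_mem _ (Subgroup.subset_closure ⟨hz₂ ha₂, hao₂⟩) b₁)
    · apply Subgroup.mul_mem
      · exact Subgroup.mem_sup_left (Subgroup.subset_closure ⟨hz₁ hb₁, hbo₁⟩)
      · exact Subgroup.mem_sup_right (Subgroup.subset_closure ⟨hz₂ hb₂, hbo₂⟩)
    · simp only
      rw [e₁, e₂]
      group
  have h1 := Cfsg.Agent.Lib.Helper12.card_mul_set (ppPart C p ⊔ ppPart F p : Subgroup G)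
    (pcPart C p ⊔ pcPart F p : Subgroup G)
  rw [hmul, Nat.card_univ] at h1
  have h2 := (pcPart C p ⊔ pcPart F p : Subgroup G).index_mul_card
  have h3 : (pcPart C p ⊔ pcPart F p : Subgroup G).index =
      (pcPart C p ⊔ pcPart F p : Subgroup G).relIndex (ppPart C p ⊔ ppPart F p : Subgroup G) := by
    apply Nat.eq_of_mul_eq_mul_right (Nat.card_pos (α := (pcPart C p ⊔ pcPart F p : Subgroup G)))
    rw [h2, h1]
  obtain ⟨m, hm⟩ := hU.exists_card_eq
  have h4 : (pcPart C p ⊔ pcPart F p : Subgroup G).index ∣ (p : ℕ) ^ m := by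
    rw [h3, ← hm]
    exact Subgroup.relIndex_dvd_card _ _
  obtain ⟨j, -, hj⟩ := (Nat.dvd_prime_pow hp).mp h4
  exact index_eq_pow_factorization _ p hp hcop j hj

theorem normalizer_le_systemNormalizer_pcPart [Finite G] (F : Subgroup G) [F.Normal]
    (C : Subgroup G) :
    Subgroup.normalizer (C : Set G) ≤
      Cfsg.systemNormalizer (fun p : Nat.Primes => pcPart C p ⊔ pcPart F p) := by
  intro c hc
  unfold Cfsg.systemNormalizer
  rw [Subgroup.mem_iInf]
  intro p
  have h1 := mem_normalizer_pcPart C p c hc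
  have h2 := mem_normalizer_pcPart F p c (by rw [Subgroup.normalizer_eq_top]; trivial)
  rw [Subgroup.mem_normalizer_iff_map_conj_eq] at h1 h2 ⊢
  rw [Subgroup.map_sup, h1, h2]

/-- a `p'`-subgroup normalizing a subgroup of `p`-power index lies in it -/
theorem le_of_coprime_of_le_normalizer [Finite G] (K A : Subgroup G) (p : ℕ)
    (j : ℕ) (hK : K.index = p ^ j) (hA : (Nat.card A).Coprime p)
    (hAN : A ≤ Subgroup.normalizer (K : Set G) ∨ A.Normal) : A ≤ K := by
  have h1 : Nat.card (A ⊔ K : Subgroup G) * Nat.card (A ⊓ K : Subgroup G) =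
      Nat.card A * Nat.card K := by
    rcases hAN with hAN | hAN
    · exact Cfsg.Agent.Lib.Helper12.card_sup_mul_card_inf' A K hAN
    · have := Cfsg.Agent.Lib.Helper12.card_sup_mul_card_inf K A
      rw [sup_comm, inf_comm, mul_comm (Nat.card K)] at this
      exact this
  have h2 := Cfsg.Agent.Lib.Helper12.relIndex_mul_card' (le_sup_right : K ≤ A ⊔ K)
  have h3 : K.relIndex (A ⊔ K) * Nat.card (A ⊓ K : Subgroup G) = Nat.card A := by
    apply Nat.eq_of_mul_eq_mul_right (Nat.card_pos (α := K))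
    rw [← h1, ← h2]
    ring
  have h4 : K.relIndex (A ⊔ K) ∣ p ^ j := by
    rw [← hK, ← Subgroup.relIndex_mul_index (le_sup_right : K ≤ A ⊔ K)]
    exact Dvd.intro _ rfl
  have h5 : (K.relIndex (A ⊔ K)).Coprime (p ^ j) :=
    Nat.Coprime.pow_right _ (Nat.Coprime.coprime_dvd_left (Dvd.intro _ h3) hA)
  have h6 : K.relIndex (A ⊔ K) = 1 := Nat.Coprime.eq_one_of_dvd h5 h4
  rw [Subgroup.relIndex_eq_one] at h6
  exact le_sup_left.trans h6

/-- a Carter subgroup contained in a nilpotent subgroup equals it -/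
theorem eq_of_carter_le_nilpotent (C D : Subgroup G) (hC : Cfsg.IsCarterSubgroup C)
    (hD : Group.IsNilpotent D) (hCD : C ≤ D) : C = D := by
  have h1 : NormalizerCondition D := Group.normalizerCondition_of_isNilpotent
  rw [normalizerCondition_iff_only_full_group_self_normalizing] at h1
  have h2 := h1 (C.subgroupOf D) (by rw [← Subgroup.subgroupOf_normalizer_eq hCD, hC.2])
  rw [Subgroup.subgroupOf_eq_top] at h2
  exact le_antisymm hCD h2

theorem isSolvable_of_nilpotent_by_nilpotent (F : Subgroup G) [F.Normal]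
    (hF : Group.IsNilpotent F) (hGF : Group.IsNilpotent (G ⧸ F)) : Group.IsSolvable G := by
  apply Group.isSolvable_of_ker_le_range F.subtype (QuotientGroup.mk' F)
  rw [QuotientGroup.ker_mk', Subgroup.range_subtype]

/-- normalizers grow above `F` when `G/F` is nilpotent -/
theorem exists_mem_normalizer_of_quotient_nilpotent (F : Subgroup G) [F.Normal]
    (hGF : Group.IsNilpotent (G ⧸ F)) (H : Subgroup G) (hFH : F ≤ H) (hH : H ≠ ⊤) :
    ∃ x, x ∈ Subgroup.normalizer (H : Set G) ∧ x ∉ H := by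
  by_contra hcon
  push Not at hcon
  have h0 : Subgroup.normalizer (H : Set G) = H := le_antisymm hcon Subgroup.le_normalizer
  have hk : (QuotientGroup.mk' F).ker ≤ H := by rwa [QuotientGroup.ker_mk']
  have h1 : NormalizerCondition (G ⧸ F) := Group.normalizerCondition_of_isNilpotent
  rw [normalizerCondition_iff_only_full_group_self_normalizing] at h1
  have h2 := h1 (H.map (QuotientGroup.mk' F)) (by
    apply Subgroup.comap_injective (QuotientGroup.mk'_surjective F)
    rw [Subgroup.comap_normalizer_eq_of_surjective _ (QuotientGroup.mk'_surjective F),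
      Subgroup.comap_map_eq_self hk, h0])
  apply hH
  rw [← Subgroup.comap_map_eq_self hk, h2, Subgroup.comap_top]

theorem conj_mem_systemNormalizer (K L : Nat.Primes → Subgroup G) (g : G)
    (h : ∀ p, MulAut.conj g • K p = L p) (x : G) (hx : x ∈ Cfsg.systemNormalizer K) :
    g * x * g⁻¹ ∈ Cfsg.systemNormalizer L := by
  unfold Cfsg.systemNormalizer at hx ⊢
  rw [Subgroup.mem_iInf] at hx ⊢
  intro p
  have h1 := hx p
  rw [Subgroup.mem_normalizer_iff] at h1 ⊢
  intro y
  rw [← h p, Subgroup.mem_pointwise_smul_iff_inv_smul_mem,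
    Subgroup.mem_pointwise_smul_iff_inv_smul_mem, h1]
  simp only [← map_inv, MulAut.smul_def, MulAut.conj_apply, inv_inv]
  have e : g⁻¹ * (g * x * g⁻¹ * y * (g * x * g⁻¹)⁻¹) * g = x * (g⁻¹ * y * g) * x⁻¹ := by group
  rw [e]

/-- a Carter subgroup covering `G/F` is a system normalizer -/
theorem carter_eq_systemNormalizer_of_sup [Finite G] (F : Subgroup G) [F.Normal]
    (hF : Group.IsNilpotent F) [Group.IsSolvable G] (C : Subgroup G)
    (hC : Cfsg.IsCarterSubgroup C) (hCF : C ⊔ F = ⊤) :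
    C = Cfsg.systemNormalizer (fun p : Nat.Primes => pcPart C p ⊔ pcPart F p) :=
  eq_of_carter_le_nilpotent C _ hC
    (Cfsg.Agent.S0544.result _ (isComplementSystem_pcPart F hF C hC.1 hCF))
    (Subgroup.le_normalizer.trans (normalizer_le_systemNormalizer_pcPart F C))

/-- two Carter subgroups covering `G/F` are conjugate -/
theorem carter_conj_of_sup [Finite G] (F : Subgroup G) [F.Normal]
    (hF : Group.IsNilpotent F) [Group.IsSolvable G] (C₁ C₂ : Subgroup G)
    (hC₁ : Cfsg.IsCarterSubgroup C₁) (hC₂ : Cfsg.IsCarterSubgroup C₂)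
    (h₁ : C₁ ⊔ F = ⊤) (h₂ : C₂ ⊔ F = ⊤) : ∃ g : G, ∀ x ∈ C₁, g * x * g⁻¹ ∈ C₂ := by
  obtain ⟨g, hg⟩ := Cfsg.Agent.S0543.result _ _ (isComplementSystem_pcPart F hF C₁ hC₁.1 h₁)
    (isComplementSystem_pcPart F hF C₂ hC₂.1 h₂)
  refine ⟨g, fun x hx => ?_⟩
  rw [carter_eq_systemNormalizer_of_sup F hF C₁ hC₁ h₁] at hx
  rw [carter_eq_systemNormalizer_of_sup F hF C₂ hC₂ h₂]
  exact conj_mem_systemNormalizer _ _ g hg x hx

theorem carter_subgroupOf (C H : Subgroup G) (hC : Cfsg.IsCarterSubgroup C) (hCH : C ≤ H) :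
    Cfsg.IsCarterSubgroup (C.subgroupOf H) := by
  refine ⟨(Group.isNilpotent_congr (Subgroup.subgroupOfEquivOfLe hCH)).mpr hC.1, ?_⟩
  rw [← Subgroup.subgroupOf_normalizer_eq hCH, hC.2]

theorem carter_map_conj (C : Subgroup G) (hC : Cfsg.IsCarterSubgroup C) (x : G) :
    Cfsg.IsCarterSubgroup (C.map (MulAut.conj x).toMonoidHom) := by
  refine ⟨(Group.isNilpotent_congr
    (C.equivMapOfInjective (MulAut.conj x).toMonoidHom (MulAut.conj x).injective)).mp hC.1, ?_⟩
  rw [← Subgroup.map_equiv_normalizer_eq, hC.2]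

theorem mem_normalizer_of_conj_mem [Finite G] (C : Subgroup G) (g : G)
    (h : ∀ c ∈ C, g * c * g⁻¹ ∈ C) : g ∈ Subgroup.normalizer (C : Set G) := by
  have := mem_normalizer_closure (C : Set G) g h
  rwa [Subgroup.closure_eq] at this

/-- a Carter subgroup covers the nilpotent quotient `G/F` -/
theorem carter_sup_eq_top [Finite G] (F : Subgroup G) [F.Normal]
    (hF : Group.IsNilpotent F) (hGF : Group.IsNilpotent (G ⧸ F)) (C : Subgroup G)
    (hC : Cfsg.IsCarterSubgroup C) : C ⊔ F = ⊤ := by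
  by_contra hne
  obtain ⟨x, hxN, hxH⟩ :=
    exists_mem_normalizer_of_quotient_nilpotent F hGF (C ⊔ F) le_sup_right hne
  have hsol : Group.IsSolvable G := isSolvable_of_nilpotent_by_nilpotent F hF hGF
  have hCH : C ≤ C ⊔ F := le_sup_left
  have hFH : F ≤ C ⊔ F := le_sup_right
  have hC'H : C.map (MulAut.conj x).toMonoidHom ≤ C ⊔ F := by
    rintro _ ⟨c, hc, rfl⟩
    exact (Subgroup.mem_normalizer_iff.mp hxN c).mp (hCH hc)
  have hC'F : C.map (MulAut.conj x).toMonoidHom ⊔ F = C ⊔ F := by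
    have h1 := (Subgroup.mem_normalizer_iff_map_conj_eq).mp hxN
    have h2 := (Subgroup.mem_normalizer_iff_map_conj_eq (H := F) (g := x)).mp
      (by rw [Subgroup.normalizer_eq_top]; trivial)
    rw [Subgroup.map_sup, h2] at h1
    exact h1
  obtain ⟨h, hh⟩ := carter_conj_of_sup (F.subgroupOf (C ⊔ F))
    ((Group.isNilpotent_congr (Subgroup.subgroupOfEquivOfLe hFH)).mpr hF)
    (C.subgroupOf (C ⊔ F)) ((C.map (MulAut.conj x).toMonoidHom).subgroupOf (C ⊔ F))
    (carter_subgroupOf _ _ hC hCH) (carter_subgroupOf _ _ (carter_map_conj C hC x) hC'H)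
    (by rw [← Subgroup.subgroupOf_sup hCH hFH, Subgroup.subgroupOf_self])
    (by rw [← Subgroup.subgroupOf_sup hC'H hFH, hC'F, Subgroup.subgroupOf_self])
  have h3 : x⁻¹ * (h : G) ∈ Subgroup.normalizer (C : Set G) := by
    apply mem_normalizer_of_conj_mem
    intro c hc
    have h4 := hh ⟨c, hCH hc⟩ (by rw [Subgroup.mem_subgroupOf]; exact hc)
    rw [Subgroup.mem_subgroupOf] at h4
    obtain ⟨c', hc', e⟩ := h4
    have e' : x * c' * x⁻¹ = (h : G) * c * (h : G)⁻¹ := by simpa using e
    have e2 : x⁻¹ * (h : G) * c * (x⁻¹ * (h : G))⁻¹ = c' := by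
      calc x⁻¹ * (h : G) * c * (x⁻¹ * (h : G))⁻¹ = x⁻¹ * ((h : G) * c * (h : G)⁻¹) * x := by group
        _ = c' := by rw [← e']; group
    rw [e2]; exact hc'
  rw [hC.2] at h3
  apply hxH
  have h5 : x⁻¹ ∈ C ⊔ F := by
    have := (C ⊔ F).mul_mem (hCH h3) ((C ⊔ F).inv_mem h.2)
    simpa using this
  simpa using (C ⊔ F).inv_mem h5

/-- a system normalizer covers the nilpotent quotient `G/F` -/
theorem systemNormalizer_sup_eq_top [Finite G] [Group.IsSolvable G] (F : Subgroup G) [F.Normal]
    (hGF : Group.IsNilpotent (G ⧸ F)) (K : Nat.Primes → Subgroup G)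
    (hK : Cfsg.IsComplementSystem K) : Cfsg.systemNormalizer K ⊔ F = ⊤ := by
  rcases eq_top_or_exists_le_coatom (Cfsg.systemNormalizer K ⊔ F) with h | ⟨M, hM, hle⟩
  · exact h
  · exfalso
    obtain ⟨x, hxN, hxM⟩ :=
      exists_mem_normalizer_of_quotient_nilpotent F hGF M (le_sup_right.trans hle) hM.1
    have h1 : Subgroup.normalizer (M : Set G) = ⊤ :=
      hM.2 _ (lt_of_le_of_ne Subgroup.le_normalizer (fun e => hxM (by rw [e]; exact hxN)))
    have h2 : M.Normal := Subgroup.normalizer_eq_top_iff.mp h1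
    have h3 := Cfsg.Agent.S0546.result K hK
    have h4 : Subgroup.normalClosure ((Cfsg.systemNormalizer K : Subgroup G) : Set G) ≤ M :=
      Subgroup.normalClosure_le_normal
        (show Cfsg.systemNormalizer K ≤ M from le_sup_left.trans hle)
    rw [h3] at h4
    exact hM.1 (top_le_iff.mp h4)

/-- in a nilpotent-by-nilpotent group the system normalizers are Carter subgroups -/
theorem systemNormalizer_isCarter [Finite G] (F : Subgroup G) [F.Normal]
    (hF : Group.IsNilpotent F) (hGF : Group.IsNilpotent (G ⧸ F)) (K : Nat.Primes → Subgroup G)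
    (hK : Cfsg.IsComplementSystem K) : Cfsg.IsCarterSubgroup (Cfsg.systemNormalizer K) := by
  have hsol : Group.IsSolvable G := isSolvable_of_nilpotent_by_nilpotent F hF hGF
  have hD : Group.IsNilpotent (Cfsg.systemNormalizer K) := Cfsg.Agent.S0544.result K hK
  have hDF := systemNormalizer_sup_eq_top F hGF K hK
  have hK' := isComplementSystem_pcPart F hF _ hD hDF
  have hKK : (fun p : Nat.Primes => pcPart (Cfsg.systemNormalizer K) p ⊔ pcPart F p) = K := by
    funext p
    have hle : pcPart (Cfsg.systemNormalizer K) p ⊔ pcPart F p ≤ K p := by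
      have : Fact (p : ℕ).Prime := ⟨p.2⟩
      have hn := pcPart_normal F (p : ℕ)
      apply sup_le
      · apply le_of_coprime_of_le_normalizer (K p) _ p _ (hK p) (card_pcPart_coprime _ hD p)
        have h1 : pcPart (Cfsg.systemNormalizer K) p ≤ Cfsg.systemNormalizer K := by
          unfold pcPart
          rw [Subgroup.closure_le]
          exact fun x hx => hx.1
        exact Or.inl (h1.trans (iInf_le _ p))
      · exact le_of_coprime_of_le_normalizer (K p) _ p _ (hK p) (card_pcPart_coprime _ hF p)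
          (Or.inr hn)
    have h2 := hK' p
    rw [← hK p] at h2
    have h3 := Subgroup.relIndex_mul_index hle
    simp only at h2
    rw [h2] at h3
    have h4 : (pcPart (Cfsg.systemNormalizer K) p ⊔ pcPart F p).relIndex (K p) = 1 := by
      have h5 : (K p).index ≠ 0 := Subgroup.index_ne_zero_of_finite
      exact Nat.eq_of_mul_eq_mul_right (Nat.pos_of_ne_zero h5) (by rw [h3, one_mul])
    exact le_antisymm hle (Subgroup.relIndex_eq_one.mp h4)
  refine ⟨hD, le_antisymm ?_ Subgroup.le_normalizer⟩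
  have := normalizer_le_systemNormalizer_pcPart F (Cfsg.systemNormalizer K)
  rwa [hKK] at this

end Cfsg.Agent.Lib.Helper13
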