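import Mathlib

set_option autoImplicit false

namespace Cfsg.Agent.Lib.Helper13.J1O

/-- enumeration of the possible Sylow numbers by a kernel computation. -/
theorem mem_of_filter (B M p : ℕ) (L : List ℕ)
    (h : ((List.range B).filter
      (fun n => decide (M % n = 0) && decide (n % p = 1) && decide (19 ≤ n))) = L)
    (n : ℕ) (hB : n < B) (h1 : n ∣ M) (h2 : n % p = 1) (h3 : 19 ≤ n) : n ∈ L := by
  rw [← h, List.mem_filter]
  refine ⟨List.mem_range.2 hB, ?_⟩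
  simp [Nat.mod_eq_zero_of_dvd h1, h2, h3]

theorem lt_of_mul_eq {n N M p : ℕ} (h : n * N = M) (hp : p ∣ N) (hM : 0 < M) (hp1 : 1 < p) :
    n < M / p + 1 := by
  obtain ⟨k, rfl⟩ := hp
  have hk : 0 < k := by
    rcases Nat.eq_zero_or_pos k with rfl | hk
    · simp at h; omega
    · exact hk
  have h1 : n * p ≤ M := by
    calc n * p ≤ n * (p * k) := Nat.mul_le_mul_left _ (Nat.le_mul_of_pos_right _ hk)
      _ = M := h
  have h2 : n ≤ M / p := (Nat.le_div_iff_mul_le (by omega)).2 h1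
  omega

theorem ce5_arith (n N C e : ℕ) (h1 : n % 5 = 1) (h2 : n * N = 87780) (h3 : 5 ∣ C)
    (h5 : 19 ≤ n) (he1 : 1 < e) (he4 : e ∣ 5 - 1) (hN : N = e * C) (a19 : ¬ 19 ∣ N) (a11 : ¬ 11 ∣ N) :
    n = 2926 ∧ C = 15 := by
  have he : e = 2 ∨ e = 4 := by
    have := Nat.le_of_dvd (by norm_num) he4
    interval_cases e
    · left; rfl
    · omega
    · right; rfl
  have h5N : 5 ∣ N := hN ▸ Dvd.dvd.mul_left h3 e
  have hn : n ∈ [21, 66, 76, 231, 266, 836, 1596, 2926, 17556] :=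
    mem_of_filter 17557 87780 5 _ (by decide +kernel) n
      (lt_of_mul_eq h2 h5N (by norm_num) (by norm_num)) ⟨N, h2.symm⟩ h1 h5
  simp only [List.mem_cons, List.not_mem_nil, or_false] at hn
  rcases he with rfl | rfl <;>
  rcases hn with rfl | rfl | rfl | rfl | rfl | rfl | rfl | rfl | rfl <;>
  refine ⟨?_, ?_⟩ <;> omega

theorem ce7_arith (n N C : ℕ) (h1 : n % 7 = 1) (h2 : n * N = 87780) (h3 : 7 ∣ C) (h4 : C ∣ N)
    (h5 : 19 ≤ n) (a19 : ¬ 19 ∣ N) (a11 : ¬ 11 ∣ N) (a5 : ¬ 5 ∣ N) : n = 4180 := by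
  have h7N : 7 ∣ N := h3.trans h4
  have hn : n ∈ [22, 57, 190, 330, 1254, 4180] :=
    mem_of_filter 12541 87780 7 _ (by decide +kernel) n
      (lt_of_mul_eq h2 h7N (by norm_num) (by norm_num)) ⟨N, h2.symm⟩ h1 h5
  simp only [List.mem_cons, List.not_mem_nil, or_false] at hn
  rcases hn with rfl | rfl | rfl | rfl | rfl | rfl <;> omega

theorem n11_arith (n N C : ℕ) (h1 : n % 11 = 1) (h2 : n * N = 87780) (h3 : 11 ∣ C) (h4 : C ∣ N)
    (h5 : 19 ≤ n) : (n = 133 ∧ N = 660) ∨ (n = 210 ∧ N = 418) ∨ (n = 1596 ∧ N = 55) := by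
  have h7N : 11 ∣ N := h3.trans h4
  have hn : n ∈ [133, 210, 1596] :=
    mem_of_filter 7981 87780 11 _ (by decide +kernel) n
      (lt_of_mul_eq h2 h7N (by norm_num) (by norm_num)) ⟨N, h2.symm⟩ h1 h5
  simp only [List.mem_cons, List.not_mem_nil, or_false] at hn
  rcases hn with rfl | rfl | rfl <;> omega

theorem brauer12 (h u : ℕ) (hh : 0 < h) (hu : 0 < u)
    (e : 12 * (u + 1) = h * u * 11 + u ^ 2 + u + h) : False := by
  have hu' : u ≤ 12 := by
    by_contra hcon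
    push Not at hcon
    nlinarith [Nat.zero_le (h * u * 11)]
  interval_cases u <;> omega

end Cfsg.Agent.Lib.Helper13.J1O
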