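import Mathlib
import Cfsg.Agent.S0580
import Cfsg.Agent.Lib.Helper42.Supersolvable

set_option autoImplicit false

namespace Cfsg.Agent.Lib.Helper13

/-- If all maximal subgroups have prime index, the Sylow subgroup for the largest prime is normal. -/
theorem sylow_normal_of_prime_index {G : Type*} [Group G] [Finite G]
    (h : ∀ M : Subgroup G, IsCoatom M → M.index.Prime) {p : ℕ} [Fact p.Prime]
    (hmax : ∀ q : ℕ, q.Prime → q ∣ Nat.card G → q ≤ p) (P : Sylow p G) :
    (P : Subgroup G).Normal := by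
  rw [← Subgroup.normalizer_eq_top_iff]
  by_contra hcon
  obtain ⟨M, hM, hle⟩ := (eq_top_or_exists_le_coatom _).resolve_left hcon
  have hq := h M hM
  have hqd : M.index ∣ Nat.card G := Subgroup.index_dvd_card M
  have hqle : M.index ≤ p := hmax _ hq hqd
  have hmod := Cfsg.Agent.S0580.index_modEq_one P M hle
  have h2 : 2 ≤ M.index := hq.two_le
  have h3 : p ∣ M.index - 1 := (Nat.modEq_iff_dvd' (by omega)).mp hmod.symm
  have h4 := Nat.le_of_dvd (by omega) h3
  omega

/-- In a finite supersolvable group the Sylow subgroup for the largest prime is normal. -/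
theorem ss_sylow_normal {G : Type*} [Group G] [Finite G] (hG : Cfsg.IsSupersolvable G) {p : ℕ}
    [Fact p.Prime] (hmax : ∀ q : ℕ, q.Prime → q ∣ Nat.card G → q ≤ p) (P : Sylow p G) :
    (P : Subgroup G).Normal :=
  sylow_normal_of_prime_index
    (fun M hM => Cfsg.Agent.Lib.Helper42.ss_index_prime_of_isCoatom _ G rfl hG M hM) hmax P

/-- Ambient version: a supersolvable subgroup `H` has a normal Sylow subgroup for the largest
prime dividing its order. -/
theorem ss_exists_normal_sylow {G : Type*} [Group G] [Finite G] (H : Subgroup G)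
    (hH : Cfsg.IsSupersolvable H) {p : ℕ} [Fact p.Prime] (hp : p ∣ Nat.card H)
    (hmax : ∀ q : ℕ, q.Prime → q ∣ Nat.card H → q ≤ p) :
    ∃ P : Subgroup G, P ≤ H ∧ IsPGroup p P ∧ ¬ p ∣ P.relIndex H ∧
      H ≤ Subgroup.normalizer (P : Set G) ∧ P ≠ ⊥ := by
  obtain ⟨P⟩ : Nonempty (Sylow p H) := inferInstance
  have hn := ss_sylow_normal hH hmax P
  refine ⟨(P : Subgroup H).map H.subtype, Subgroup.map_subtype_le _, P.2.map _, ?_, ?_, ?_⟩
  · rw [Subgroup.relIndex, Subgroup.subgroupOf,
      Subgroup.comap_map_eq_self_of_injective (Subgroup.subtype_injective _)]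
    exact P.not_dvd_index
  · rw [Subgroup.le_normalizer_iff]
    rintro h hh _ ⟨x, hx, rfl⟩
    exact ⟨(⟨h, hh⟩ : H) * x * (⟨h, hh⟩ : H)⁻¹, hn.conj_mem x hx ⟨h, hh⟩, rfl⟩
  · rw [Ne, Subgroup.map_eq_bot_iff_of_injective _ H.subtype_injective]
    exact P.ne_bot_of_dvd_card hp

end Cfsg.Agent.Lib.Helper13
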