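import Mathlib
import Cfsg.Prelude.Def_OddOrderLocal
import Cfsg.Agent.Lib.Helper68.Meta5
import Cfsg.Agent.Lib.Helper89.MetaOmega
import Cfsg.Agent.Lib.Helper3.ClassTwo
import Cfsg.Agent.Lib.Helper3.Extraspecial
import Cfsg.Agent.Lib.Helper3.Metacyclic
import Cfsg.Agent.Lib.Helper3.Transfer
import Cfsg.Agent.Lib.Helper67.PGroupAux

set_option autoImplicit false

/-! Coprime action on metacyclic `p`-groups, `p` odd (Bender-Glauberman 4.x). -/

namespace Cfsg.Agent.Lib.Helper13.MetaCoprime

open Subgroup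
open scoped commutatorElement

variable {R : Type*} [Group R] {A : Type*} [Group A]

/-- the generating set of `[R, A]` for an action `ψ` -/
def commSet (ψ : A →* MulAut R) : Set R := {y | ∃ (a : A) (x : R), y = x⁻¹ * ψ a x}

/-- If `R = [R, A]` (coprime action on a `p`-group) then `A` has no nontrivial fixed point on `R / D`
for `D ≥ R'`. -/
theorem mem_of_forall_comm_mem [Finite R] [Finite A] {p : ℕ} [Fact p.Prime] (hR : IsPGroup p R)
    (hA : (Nat.card A).Coprime p) (ψ : A →* MulAut R) (hgen : closure (commSet ψ) = ⊤)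
    (D : Subgroup R) (hD : commutator R ≤ D) (x : R) (hx : ∀ a, x⁻¹ * ψ a x ∈ D) : x ∈ D := by
  classical
  have : D.Normal := Cfsg.Agent.Lib.Helper3.normal_of_commutator_le D hD
  let _ : Fintype A := Fintype.ofFinite A
  let _ : CommGroup (R ⧸ D) := { (QuotientGroup.Quotient.group D) with
    mul_comm := by
      intro a b
      induction a using QuotientGroup.induction_on with
      | H a =>
        induction b using QuotientGroup.induction_on with
        | H b =>
          rw [← QuotientGroup.mk_mul, ← QuotientGroup.mk_mul, QuotientGroup.eq]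
          apply hD
          have : (a * b)⁻¹ * (b * a) = ⁅b⁻¹, a⁻¹⁆ := by rw [commutatorElement_def]; group
          rw [this]
          exact commutator_mem_commutator (mem_top _) (mem_top _) }
  let N : R →* R ⧸ D := ∏ a : A, (QuotientGroup.mk' D).comp (ψ a).toMonoidHom
  have hN : ∀ y, N y = ∏ a : A, (QuotientGroup.mk (ψ a y) : R ⧸ D) := by
    intro y
    simp only [N, MonoidHom.finsetProd_apply]
    rfl
  have hinv : ∀ b y, N (ψ b y) = N y := by
    intro b y
    rw [hN, hN]
    apply Fintype.prod_equiv (Equiv.mulRight b)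
    intro a
    simp [map_mul]
  have hker : closure (commSet ψ) ≤ N.ker := by
    rw [closure_le]
    rintro _ ⟨a, y, rfl⟩
    simp only [SetLike.mem_coe, MonoidHom.mem_ker, map_mul, map_inv, hinv, inv_mul_cancel]
  have hNx : N x = 1 := by
    have : x ∈ N.ker := hker (hgen ▸ mem_top x)
    exact this
  have h1 : N x = (QuotientGroup.mk x : R ⧸ D) ^ Nat.card A := by
    rw [hN]
    have : ∀ a : A, (QuotientGroup.mk (ψ a x) : R ⧸ D) = QuotientGroup.mk x := by
      intro a
      exact (QuotientGroup.eq.mpr (hx a)).symm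
    simp [this, Finset.prod_const, Nat.card_eq_fintype_card]
  obtain ⟨k, hk⟩ := hR x
  have h2 : (QuotientGroup.mk x : R ⧸ D) ^ p ^ k = 1 := by
    rw [← QuotientGroup.mk_pow, hk]; rfl
  have h3 : (QuotientGroup.mk x : R ⧸ D) = 1 :=
    Cfsg.Agent.Lib.Helper3.eq_one_of_pow_coprime (hA.pow_right k) (h1 ▸ hNx) h2
  exact (QuotientGroup.eq_one_iff x).mp h3

/-- Special case: no coprime action with `R = [R, A]` on a metacyclic `p`-group (`p` odd) with `|R'| = p`. -/
theorem no_fpf_class_two [Finite R] [Finite A] {p : ℕ} [hp : Fact p.Prime] (hodd : p ≠ 2)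
    (hR : IsPGroup p R) (hm : Cfsg.IsMetacyclic R) (hc : Nat.card (commutator R) = p)
    (hA : (Nat.card A).Coprime p) (ψ : A →* MulAut R) (hgen : closure (commSet ψ) = ⊤) : False := by
  classical
  have hpp : p.Prime := hp.out
  have hcZ : commutator R ≤ center R :=
    Cfsg.Agent.Lib.Helper67.le_center_of_normal_card_eq hR (commutator R) hc
  have h2 : ⁅commutator R, (⊤ : Subgroup R)⁆ = ⊥ := by
    rw [commutator_eq_bot_iff_le_centralizer, coe_top, centralizer_univ]
    exact hcZ
  have hcp : ∀ g ∈ commutator R, g ^ p = 1 := by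
    intro g hg
    have := pow_card_eq_one' (G := commutator R) (x := ⟨g, hg⟩)
    rw [hc] at this
    exact congrArg Subtype.val this
  have hpow : ∀ x y : R, (x * y) ^ p = x ^ p * y ^ p := fun x y =>
    Cfsg.Agent.Lib.Helper3.mul_pow_prime_class_two hpp hodd h2 x y
      (hcp _ (commutator_mem_commutator (mem_top _) (mem_top _)))
  have hpowj : ∀ (j : ℕ) (x y : R), (x * y) ^ p ^ j = x ^ p ^ j * y ^ p ^ j := by
    intro j
    induction j with
    | zero => intro x y; simp
    | succ j ih => intro x y; rw [pow_succ, pow_mul, pow_mul, pow_mul, ih, hpow]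
  have hag : Cfsg.Agent.Lib.Helper68.agemo p 1 R = center R :=
    Cfsg.Agent.Lib.Helper68.agemo_eq_center hodd hR hm (n := 1) (by rw [hc, pow_one])
  have hZpow : ∀ z ∈ center R, ∃ y : R, y ^ p = z := by
    intro z hz
    rw [← hag, Cfsg.Agent.Lib.Helper68.agemo_def] at hz
    induction hz using closure_induction with
    | mem x hx => obtain ⟨y, hy⟩ := hx; exact ⟨y, by rwa [pow_one] at hy⟩
    | one => exact ⟨1, one_pow _⟩
    | mul x y _ _ hx hy =>
      obtain ⟨a, rfl⟩ := hx; obtain ⟨b, rfl⟩ := hy; exact ⟨a * b, hpow a b⟩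
    | inv x _ hx => obtain ⟨a, rfl⟩ := hx; exact ⟨a⁻¹, inv_pow a p⟩
  have hcardZ : Nat.card R = Nat.card (center R) * p ^ 2 := by
    have := Cfsg.Agent.Lib.Helper68.card_agemo hodd hR hm (n := 1) (by rw [hc, pow_one]) (s := 0)
      (Nat.zero_le _)
    rw [Cfsg.Agent.Lib.Helper68.agemo_zero, card_top] at this
    simpa using this
  obtain ⟨c, hcmem, hc1, hcgen⟩ : ∃ c ∈ commutator R, c ≠ 1 ∧
      ∀ g ∈ commutator R, ∃ i : ℕ, c ^ i = g := by
    have hne : commutator R ≠ ⊥ := by
      intro h; rw [h, card_bot] at hc; exact hpp.one_lt.ne hc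
    obtain ⟨c, hcm, hc1⟩ : ∃ c ∈ commutator R, c ≠ 1 := by
      by_contra h
      push Not at h
      exact hne ((eq_bot_iff_forall _).mpr h)
    refine ⟨c, hcm, hc1, ?_⟩
    intro g hg
    have h3 := mem_zpowers_of_prime_card (G := commutator R) (g := ⟨c, hcm⟩) (g' := ⟨g, hg⟩) hc
      (by intro h; exact hc1 (congrArg Subtype.val h))
    rw [← mem_powers_iff_mem_zpowers] at h3
    obtain ⟨i, hi⟩ := h3
    exact ⟨i, by simpa using congrArg Subtype.val hi⟩
  obtain ⟨e, he⟩ := hR.exists_card_eq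
  have hex : ∃ n, ¬ ∃ x : R, x ^ p ^ n = c := ⟨e, by
    rintro ⟨x, hx⟩
    rw [← he, pow_card_eq_one'] at hx
    exact hc1 hx.symm⟩
  have hn_spec := Nat.find_spec hex
  have hn_min : ∀ m < Nat.find hex, ∃ x : R, x ^ p ^ m = c :=
    fun m hm => not_not.mp (Nat.find_min hex hm)
  have hn0 : Nat.find hex ≠ 0 := by
    intro h; rw [h] at hn_spec; exact hn_spec ⟨c, by simp⟩
  have hn1 : Nat.find hex ≠ 1 := by
    intro h; rw [h] at hn_spec
    obtain ⟨y, hy⟩ := hZpow c (hcZ hcmem)
    exact hn_spec ⟨y, by simpa using hy⟩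
  obtain ⟨j, hj⟩ : ∃ j, Nat.find hex = j + 1 := ⟨Nat.find hex - 1, by omega⟩
  rw [hj] at hn_spec
  obtain ⟨x0, hx0⟩ := hn_min j (by omega)
  let P : ℕ → (R →* R) := fun i =>
    { toFun := fun x => x ^ p ^ i, map_one' := one_pow _, map_mul' := hpowj i }
  have hP : ∀ i x, P i x = x ^ p ^ i := fun _ _ => rfl
  let M : Subgroup R := (P (j + 1)).range.comap (P j)
  have hM : ∀ y, y ∈ M ↔ ∃ w : R, w ^ p ^ (j + 1) = y ^ p ^ j := fun y => Iff.rfl
  have hx0M : x0 ∉ M := by
    rw [hM, hx0]; exact hn_spec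
  have hZM : center R ≤ M := by
    intro z hz
    obtain ⟨y, rfl⟩ := hZpow z hz
    exact (hM _).mpr ⟨y, by rw [pow_succ', pow_mul]⟩
  have hMψ : ∀ a y, y ∈ M → ψ a y ∈ M := by
    intro a y hy
    obtain ⟨w, hw⟩ := (hM y).mp hy
    exact (hM _).mpr ⟨ψ a w, by rw [← map_pow, hw, map_pow]⟩
  have hEψ : ∀ a y, y ∈ centralizer (M : Set R) → ψ a y ∈ centralizer (M : Set R) := by
    intro a y hy
    rw [mem_centralizer_iff] at hy ⊢
    intro h hh
    have h3 := hy (ψ a⁻¹ h) (hMψ _ _ hh)
    have h4 : ψ a (ψ a⁻¹ h) = h := by rw [map_inv]; exact MulAut.apply_inv_self _ _ _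
    calc h * ψ a y = ψ a (ψ a⁻¹ h * y) := by rw [map_mul, h4]
      _ = ψ a y * h := by rw [h3, map_mul, h4]
  have hDle : commutator R ≤ centralizer {x0} ⊓ centralizer (M : Set R) :=
    hcZ.trans (le_inf (center_le_centralizer _) (center_le_centralizer _))
  have key : ∀ y ∈ centralizer (M : Set R), ∀ a,
      y⁻¹ * ψ a y ∈ centralizer {x0} ⊓ centralizer (M : Set R) := by
    intro y hy a
    refine mem_inf.mpr ⟨?_, mul_mem (inv_mem hy) (hEψ a y hy)⟩
    have hchar : ψ a c ∈ commutator R := by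
      have h3 : ψ a c ∈ (commutator R).map (ψ a).toMonoidHom := mem_map_of_mem _ hcmem
      rwa [characteristic_iff_map_eq.mp inferInstance (ψ a)] at h3
    obtain ⟨k, hk⟩ := hcgen _ hchar
    have hkp : Nat.Coprime k p := by
      apply Nat.Coprime.symm
      rw [Nat.Prime.coprime_iff_not_dvd hpp]
      rintro ⟨t, rfl⟩
      rw [pow_mul, hcp c hcmem, one_pow] at hk
      exact hc1 ((map_eq_one_iff (ψ a) (ψ a).injective).mp hk.symm)
    set u := (x0 ^ k)⁻¹ * ψ a x0 with hu
    have huP : u ^ p ^ j = 1 := by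
      rw [← hP, hu, map_mul, map_inv, map_pow, hP, hP, hx0, ← map_pow, hx0, hk, inv_mul_cancel]
    have huM : u ∈ M := (hM u).mpr ⟨1, by rw [huP, one_pow]⟩
    have hx0u : ψ a x0 = x0 ^ k * u := by rw [hu]; group
    set y' := ψ a y with hy'
    have hy'E : y' ∈ centralizer (M : Set R) := hEψ a y hy
    have huy : u * y' = y' * u := (mem_centralizer_iff.mp hy'E) u huM
    have e1 : ψ a ⁅x0, y⁆ = ⁅x0, y'⁆ ^ k := by
      rw [map_commutatorElement, hx0u,
        ← Cfsg.Agent.Lib.Helper3.commutator_pow_left_class_two h2 y' x0 k]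
      rw [commutatorElement_def, commutatorElement_def]
      calc x0 ^ k * u * y' * (x0 ^ k * u)⁻¹ * y'⁻¹
          = x0 ^ k * (u * y') * u⁻¹ * (x0 ^ k)⁻¹ * y'⁻¹ := by group
        _ = x0 ^ k * y' * (x0 ^ k)⁻¹ * y'⁻¹ := by rw [huy]; group
    have e2 : ψ a ⁅x0, y⁆ = ⁅x0, y⁆ ^ k := by
      obtain ⟨i, hi⟩ := hcgen ⁅x0, y⁆ (commutator_mem_commutator (mem_top _) (mem_top _))
      rw [← hi, map_pow, ← hk, ← pow_mul, ← pow_mul, mul_comm]
    let χ := Cfsg.Agent.Lib.Helper3.commHom hcZ x0
    have hmul : ⁅x0, y⁻¹ * y'⁆ = ⁅x0, y⁆⁻¹ * ⁅x0, y'⁆ := by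
      have := congrArg Subtype.val (show χ (y⁻¹ * y') = (χ y)⁻¹ * χ y' by rw [map_mul, map_inv])
      exact this
    have hz : ⁅x0, y⁆⁻¹ ∈ center R :=
      inv_mem (hcZ (commutator_mem_commutator (mem_top _) (mem_top _)))
    have hcm : Commute ⁅x0, y⁆⁻¹ ⁅x0, y'⁆ := ((mem_center_iff.mp hz) _).symm
    have e3 : ⁅x0, y⁻¹ * y'⁆ ^ k = 1 := by
      rw [hmul, hcm.mul_pow, inv_pow, ← e1, e2, inv_mul_cancel]
    have e4 : ⁅x0, y⁻¹ * y'⁆ ^ p = 1 :=
      hcp _ (commutator_mem_commutator (mem_top _) (mem_top _))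
    have e5 : ⁅x0, y⁻¹ * y'⁆ = 1 := Cfsg.Agent.Lib.Helper3.eq_one_of_pow_coprime hkp e3 e4
    have e6 : Commute x0 (y⁻¹ * y') := commutatorElement_eq_one_iff_commute.mp e5
    rw [mem_centralizer_singleton_iff]
    exact e6.eq.symm
  have hE : ∀ y ∈ centralizer (M : Set R), Commute x0 y := by
    intro y hy
    have h3 := mem_of_forall_comm_mem hR hA ψ hgen _ hDle y (key y hy)
    have h4 := (mem_inf.mp h3).1
    rw [mem_centralizer_singleton_iff] at h4
    exact h4.symm
  by_cases hMZ : M ≤ center R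
  · apply hx0M
    apply hZM
    rw [mem_center_iff]
    intro g
    have hg : g ∈ centralizer (M : Set R) := by
      rw [mem_centralizer_iff]
      intro h hh
      exact ((mem_center_iff.mp (hMZ hh)) g).symm
    exact (hE g hg).eq.symm
  · obtain ⟨y0, hy0M, hy0Z⟩ := SetLike.not_le_iff_exists.mp hMZ
    have hlt1 : center R < center R ⊔ zpowers y0 := by
      apply lt_of_le_of_ne le_sup_left
      intro h
      apply hy0Z
      rw [h]
      exact le_sup_right (a := center R) (mem_zpowers y0)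
    have hHM : center R ⊔ zpowers y0 ≤ M := sup_le hZM (zpowers_le.mpr hy0M)
    have hlt2 : M < ⊤ := lt_of_le_of_ne le_top (fun h => hx0M (h ▸ mem_top x0))
    have c1 := Cfsg.Agent.Lib.Helper3.card_mul_le_of_lt hR hlt1
    have c2 := Cfsg.Agent.Lib.Helper3.card_mul_le_of_lt hR hlt2
    rw [card_top, hcardZ] at c2
    have c3 : Nat.card M ≤ p * Nat.card (center R) := by
      have : p * Nat.card M ≤ p * (p * Nat.card (center R)) := by
        calc p * Nat.card M ≤ Nat.card (center R) * p ^ 2 := c2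
          _ = p * (p * Nat.card (center R)) := by ring
      exact Nat.le_of_mul_le_mul_left this hpp.pos
    have hHeq : center R ⊔ zpowers y0 = M := eq_of_le_of_card_ge hHM (c3.trans c1)
    have hMy0 : M ≤ centralizer {y0} := by
      rw [← hHeq]
      apply sup_le (center_le_centralizer _)
      rw [zpowers_le, mem_centralizer_singleton_iff]
    have hy0E : y0 ∈ centralizer (M : Set R) := by
      rw [mem_centralizer_iff]
      intro h hh
      have := hMy0 hh
      rw [mem_centralizer_singleton_iff] at this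
      exact this
    have hcomm := hE y0 hy0E
    have hlt3 : M < M ⊔ zpowers x0 := by
      apply lt_of_le_of_ne le_sup_left
      intro h
      apply hx0M
      rw [h]
      exact le_sup_right (a := M) (mem_zpowers x0)
    have c4 := Cfsg.Agent.Lib.Helper3.card_mul_le_of_lt hR hlt3
    have c5 : p * Nat.card (center R) ≤ Nat.card M := by rw [← hHeq]; exact c1
    have hKtop : M ⊔ zpowers x0 = ⊤ := by
      apply eq_top_of_card_eq
      apply le_antisymm (Nat.card_le_card_of_injective _ Subtype.val_injective)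
      rw [hcardZ]
      calc Nat.card (center R) * p ^ 2 = p * (p * Nat.card (center R)) := by ring
        _ ≤ p * Nat.card M := Nat.mul_le_mul_left _ c5
        _ ≤ _ := c4
    apply hy0Z
    have hall : (⊤ : Subgroup R) ≤ centralizer {y0} := by
      rw [← hKtop]
      apply sup_le hMy0
      rw [zpowers_le, mem_centralizer_singleton_iff]
      exact hcomm.eq
    rw [mem_center_iff]
    intro g
    have := hall (mem_top g)
    rw [mem_centralizer_singleton_iff] at this
    exact this

/-- The homomorphism `Aut(R) → Aut(R/N)` for a characteristic subgroup `N`. -/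
def autQuot (N : Subgroup R) [N.Normal] (hN : N.Characteristic) : MulAut R →* MulAut (R ⧸ N) where
  toFun φ := QuotientGroup.congr N N φ (characteristic_iff_map_eq.1 hN φ)
  map_one' := by
    ext x
    induction x using QuotientGroup.induction_on
    rfl
  map_mul' φ ψ := by
    ext x
    induction x using QuotientGroup.induction_on
    rfl

theorem autQuot_apply_mk (N : Subgroup R) [N.Normal] (hN : N.Characteristic) (φ : MulAut R) (x : R) :
    autQuot N hN φ (QuotientGroup.mk x) = QuotientGroup.mk (φ x) := rfl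

/-- B-G 4.x: if a `p'`-group `A` acts on a metacyclic `p`-group `R` (`p` odd) with `R = [R, A]`,
then `R` is abelian. -/
theorem commutator_eq_bot_of_fpf [Finite R] [Finite A] {p : ℕ} [hp : Fact p.Prime] (hodd : p ≠ 2)
    (hR : IsPGroup p R) (hm : Cfsg.IsMetacyclic R)
    (hA : (Nat.card A).Coprime p) (ψ : A →* MulAut R) (hgen : closure (commSet ψ) = ⊤) :
    commutator R = ⊥ := by
  classical
  have hpp : p.Prime := hp.out
  by_contra hne
  obtain ⟨a, b, r, m, l, h⟩ := Cfsg.Agent.Lib.Helper68.exists_MC hR hm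
  set g := a ^ (r - 1) with hg
  have hcg : commutator R = zpowers g := h.commutator_eq
  have hg1 : g ≠ 1 := by
    intro h1; apply hne; rw [hcg, h1, zpowers_one_eq_bot]
  let N : Subgroup R := zpowers (g ^ p)
  have hNchar : N.Characteristic := by
    rw [characteristic_iff_map_le]
    intro φ
    rw [MonoidHom.map_zpowers, zpowers_le]
    have h3 : φ g ∈ commutator R := by
      have h4 : φ g ∈ (commutator R).map φ.toMonoidHom :=
        mem_map_of_mem _ (by rw [hcg]; exact mem_zpowers g)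
      rwa [characteristic_iff_map_eq.mp inferInstance φ] at h4
    rw [hcg] at h3
    obtain ⟨i, hi⟩ := h3
    refine ⟨i, ?_⟩
    show (g ^ p) ^ i = φ (g ^ p)
    have hi' : g ^ i = φ g := hi
    rw [map_pow, ← hi', ← zpow_natCast, ← zpow_natCast, ← zpow_mul, ← zpow_mul, mul_comm]
  have hNn : N.Normal := normal_of_characteristic N
  have hgN : g ∉ N := by
    rintro ⟨i, hi⟩
    have hi' : (g ^ p) ^ i = g := hi
    have h3 : g ^ ((p : ℤ) * i - 1) = 1 := by
      rw [zpow_sub, zpow_mul, zpow_natCast, hi', zpow_one, mul_inv_cancel]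
    have hd := orderOf_dvd_iff_zpow_eq_one.mpr h3
    obtain ⟨s, hs⟩ := (IsPGroup.iff_orderOf.mp hR) g
    have hs0 : s ≠ 0 := by
      rintro rfl
      rw [pow_zero, orderOf_eq_one_iff] at hs
      exact hg1 hs
    have h4 : (p : ℤ) ∣ (orderOf g : ℤ) := by
      rw [hs]; exact_mod_cast dvd_pow_self p hs0
    have h5 : (p : ℤ) ∣ (p : ℤ) * i - ((p : ℤ) * i - 1) := dvd_sub (dvd_mul_right _ _) (h4.trans hd)
    have h6 : (p : ℤ) ∣ 1 := by simpa using h5
    have h7 : p ∣ 1 := by exact_mod_cast h6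
    exact hpp.one_lt.ne' (Nat.dvd_one.mp h7)
  let ψ' : A →* MulAut (R ⧸ N) := (autQuot N hNchar).comp ψ
  apply no_fpf_class_two hodd (hR.to_quotient N)
    (Cfsg.Agent.Lib.Helper89.isMetacyclic_quotient hm N) ?_ hA ψ' ?_
  · have h3 : commutator (R ⧸ N) = zpowers (QuotientGroup.mk g : R ⧸ N) := by
      rw [commutator_def, ← map_top_of_surjective (QuotientGroup.mk' N)
        (QuotientGroup.mk'_surjective N), ← map_commutator, ← commutator_def, hcg,
        MonoidHom.map_zpowers]
      rfl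
    rw [h3, Nat.card_zpowers]
    apply orderOf_eq_prime
    · rw [← QuotientGroup.mk_pow, QuotientGroup.eq_one_iff]; exact mem_zpowers _
    · rw [Ne, QuotientGroup.eq_one_iff]; exact hgN
  · rw [eq_top_iff, ← map_top_of_surjective (QuotientGroup.mk' N)
      (QuotientGroup.mk'_surjective N), ← hgen, MonoidHom.map_closure]
    apply Subgroup.closure_mono
    rintro _ ⟨_, ⟨a, x, rfl⟩, rfl⟩
    exact ⟨a, QuotientGroup.mk x, rfl⟩

end Cfsg.Agent.Lib.Helper13.MetaCoprime
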