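import Cfsg.Agent.Lib.Helper13.RankTwoSigma

set_option autoImplicit false
set_option linter.unusedSectionVars false

/-! The `p`-power map of a frame is constant on cosets of `S`. -/

namespace Cfsg.Agent.Lib.Helper13.RankTwoFrame

open Subgroup
open scoped commutatorElement
open Cfsg.Agent.Lib.Helper3

namespace Frame

variable {R : Type*} [Group R] {p : ℕ} [Fact p.Prime] {S Z : Subgroup R} {s₁ s₂ : R}

/-- RUNG B -/
theorem mul_pow_eq (F : Frame p S Z s₁ s₂) (hp3 : 3 < p) (w : R) {s : R} (hs : s ∈ S) :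
    (w * s) ^ p = w ^ p := by
  have hp : p.Prime := Fact.out
  obtain ⟨k, q, hq, hc⟩ := F.comm_form (S.inv_mem hs) w⁻¹
  set c := ⁅s⁻¹, w⁻¹⁆ with hcdef
  have hcinv : c⁻¹ = s₁ ^ (-k) * q⁻¹ := by
    rw [hc, mul_inv_rev, zpow_neg]
    exact (mem_center_iff.mp (F.Zc (Z.inv_mem hq)) _).symm
  set d := ⁅c⁻¹, w⁻¹⁆ with hddef
  set f := ⁅c⁻¹, s⁻¹⁆ with hfdef
  have hdZ : d ∈ Z := by rw [hddef, hcinv]; exact F.comm_of_form_mem _ (Z.inv_mem hq) _
  have hfZ : f ∈ Z := by rw [hfdef, hcinv]; exact F.comm_of_form_mem _ (Z.inv_mem hq) _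
  have hcS : c ∈ S := by
    rw [hc]; exact S.mul_mem (S.zpow_mem F.hs₁ k) (F.Z_le_S hq)
  have hyx : s * w = w * s * c := mul_eq_mul_mul_commutator w s
  have hcx : c * w = w * c * d := mul_eq_mul_mul_commutator w c
  have hcy : c * s = s * c * f := mul_eq_mul_mul_commutator s c
  obtain ⟨k2, hk2⟩ := hp.dvd_choose_self (by norm_num : (2 : ℕ) ≠ 0) (by omega : 2 < p)
  obtain ⟨k3, hk3⟩ := hp.dvd_choose_self (by norm_num : (3 : ℕ) ≠ 0) hp3
  rw [mul_pow_class_three_aux hyx hcx hcy (F.Zc hdZ) (F.Zc hfZ), (F.memS s).mp hs, hk2, hk3, pow_mul,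
    (F.memS c).mp hcS, pow_mul, F.pow_eq_one hdZ, ← mul_assoc 2, mul_comm 2 p, mul_assoc p, ← mul_add,
    pow_mul, F.pow_eq_one hfZ]
  simp

/-- `p`-th powers centralize `S` -/
theorem pow_mem_centralizer (F : Frame p S Z s₁ s₂) (hp3 : 3 < p) (w : R) :
    w ^ p ∈ centralizer (S : Set R) := by
  rw [mem_centralizer_iff]
  intro s hs
  have h1 : w⁻¹ * s * w * s⁻¹ ∈ S := by
    have := F.conj_mem hs w⁻¹
    rw [inv_inv] at this
    exact S.mul_mem this (S.inv_mem hs)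
  have h2 := F.mul_pow_eq hp3 w h1
  have h3 : w * (w⁻¹ * s * w * s⁻¹) = s * w * s⁻¹ := by group
  rw [h3, conj_pow] at h2
  calc s * w ^ p = (s * w ^ p * s⁻¹) * s := by group
    _ = w ^ p * s := by rw [h2]

/-- commutators inside `S` lie in `Z` -/
theorem comm_mem_of_mem (F : Frame p S Z s₁ s₂) {a b : R} (ha : a ∈ S) (hb : b ∈ S) : ⁅a, b⁆ ∈ Z := by
  obtain ⟨i, k, q, hq, rfl⟩ := F.hdec a ha
  rw [comm_mul_central_left (F.Zc hq)]
  have h1 : ⁅s₂ ^ i * s₁ ^ k, b⁆ = s₂ ^ i * ⁅s₁ ^ k, b⁆ * (s₂ ^ i)⁻¹ * ⁅s₂ ^ i, b⁆ := by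
    simp only [commutatorElement_def]; group
  have h2 : ⁅s₁ ^ k, b⁆ ∈ Z := by
    rw [comm_zpow_left (F.cen b)]; exact Z.zpow_mem (F.hcen b) k
  have h3 : ⁅s₂ ^ i, b⁆ ∈ Z := by
    rw [comm_zpow_left (F.Zc (F.comm_s₂_mem hb))]; exact Z.zpow_mem (F.comm_s₂_mem hb) i
  have := F.normalZ
  rw [h1]
  exact Z.mul_mem (this.conj_mem _ h2 _) h3

theorem commutator_eq (F : Frame p S Z s₁ s₂) : ⁅S, S⁆ = Z := by
  apply le_antisymm
  · rw [commutator_le]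
    intro a ha b hb
    exact F.comm_mem_of_mem ha hb
  · intro q hq
    obtain ⟨i, rfl⟩ := F.mem_zpowers hq
    exact zpow_mem (commutator_mem_commutator F.hs₁ F.hs₂) i

end Frame

end Cfsg.Agent.Lib.Helper13.RankTwoFrame
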