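import Mathlib
import Cfsg.Agent.Lib.Helper13.MetaCoprime
import Cfsg.Agent.Lib.Helper3.ClassThree

set_option autoImplicit false
set_option linter.unusedSectionVars false

/-! Frame for the proof of Bender-Glauberman 4.x (S1448): a `p`-group `R` whose elements of order
dividing `p` form a nonabelian subgroup `S` of order `p ^ 3`, in coordinates. -/

namespace Cfsg.Agent.Lib.Helper13.RankTwoFrame

open Subgroup
open scoped commutatorElement

section General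

variable {G : Type*} [Group G]

/-- if `⁅a, b⁆` is central then `⁅a ^ k, b⁆ = ⁅a, b⁆ ^ k` -/
theorem comm_zpow_left {a b : G} (h : ⁅a, b⁆ ∈ center G) (k : ℤ) : ⁅a ^ k, b⁆ = ⁅a, b⁆ ^ k := by
  have h1 : b * a * b⁻¹ = ⁅a, b⁆⁻¹ * a := by rw [commutatorElement_def]; group
  have hc : Commute ⁅a, b⁆⁻¹ a := ((mem_center_iff.mp (inv_mem h)) a).symm
  have h2 : b * a ^ k * b⁻¹ = (⁅a, b⁆⁻¹) ^ k * a ^ k := by
    rw [← conj_zpow, h1, hc.mul_zpow]
  have h3 : b * (a ^ k)⁻¹ * b⁻¹ = (a ^ k)⁻¹ * ⁅a, b⁆ ^ k := by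
    have : b * (a ^ k)⁻¹ * b⁻¹ = (b * a ^ k * b⁻¹)⁻¹ := by group
    rw [this, h2, mul_inv_rev, inv_zpow, inv_inv]
  calc ⁅a ^ k, b⁆ = a ^ k * (b * (a ^ k)⁻¹ * b⁻¹) := by rw [commutatorElement_def]; group
    _ = ⁅a, b⁆ ^ k := by rw [h3]; group

/-- if `⁅a, b⁆` is central then `⁅a, b ^ k⁆ = ⁅a, b⁆ ^ k` -/
theorem comm_zpow_right {a b : G} (h : ⁅a, b⁆ ∈ center G) (k : ℤ) : ⁅a, b ^ k⁆ = ⁅a, b⁆ ^ k := by
  have h' : ⁅b, a⁆ ∈ center G := by rw [← commutatorElement_inv]; exact inv_mem h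
  rw [← commutatorElement_inv, comm_zpow_left h', ← commutatorElement_inv a b, inv_zpow, inv_inv]

/-- a central factor on the left may be dropped -/
theorem comm_mul_central_left {q : G} (hq : q ∈ center G) (a b : G) : ⁅a * q, b⁆ = ⁅a, b⁆ := by
  have h1 := mem_center_iff.mp hq
  rw [commutatorElement_def, commutatorElement_def, mul_inv_rev]
  calc a * q * b * (q⁻¹ * a⁻¹) * b⁻¹ = a * (q * b) * q⁻¹ * a⁻¹ * b⁻¹ := by group
    _ = a * (b * q) * q⁻¹ * a⁻¹ * b⁻¹ := by rw [h1 b]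
    _ = a * b * a⁻¹ * b⁻¹ := by group

/-- a central factor on the right may be dropped -/
theorem comm_mul_central_right {q : G} (hq : q ∈ center G) (a b : G) : ⁅a, b * q⁆ = ⁅a, b⁆ := by
  rw [← commutatorElement_inv, comm_mul_central_left hq, commutatorElement_inv]

/-- For `c` with all commutators `⁅c, g⁆` central, `g ↦ ⁅c, g⁆` is a homomorphism to the centre. -/
def cHom (c : G) (hc : ∀ g, ⁅c, g⁆ ∈ center G) : G →* center G where
  toFun g := ⟨⁅c, g⁆, hc g⟩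
  map_one' := Subtype.ext (commutatorElement_one_right c)
  map_mul' g h := by
    apply Subtype.ext
    show ⁅c, g * h⁆ = ⁅c, g⁆ * ⁅c, h⁆
    rw [commutatorElement_mul_right_eq_mul_conj, mul_assoc ⁅c, g⁆ g,
      mem_center_iff.mp (hc h) g, mul_assoc, mul_assoc, mul_inv_cancel, mul_one]

@[simp] theorem cHom_coe (c : G) (hc : ∀ g, ⁅c, g⁆ ∈ center G) (g : G) :
    ((cHom c hc g : center G) : G) = ⁅c, g⁆ := rfl

theorem comm_mul_right_of_central {c : G} (hc : ∀ g, ⁅c, g⁆ ∈ center G) (g h : G) :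
    ⁅c, g * h⁆ = ⁅c, g⁆ * ⁅c, h⁆ :=
  congrArg Subtype.val (map_mul (cHom c hc) g h)

/-- commutators are killed by `⁅c, ·⁆` -/
theorem comm_comm_eq_one_of_central {c : G} (hc : ∀ g, ⁅c, g⁆ ∈ center G) (g h : G) :
    ⁅c, ⁅g, h⁆⁆ = 1 := by
  have : cHom c hc ⁅g, h⁆ = 1 := by
    rw [map_commutatorElement, commutatorElement_eq_one_iff_mul_comm]
    exact Subtype.ext (mem_center_iff.mp (cHom c hc h).2 _)
  exact congrArg Subtype.val this

/-- cancel an exponent prime to `p` -/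
theorem zpow_cancel {p : ℕ} (hp : p.Prime) {a b : G} (ha : a ^ p = 1) (hb : b ^ p = 1) {N : ℤ}
    (hN : ¬ (p : ℤ) ∣ N) (h : a ^ N = b ^ N) : a = b := by
  have hcop : IsCoprime N (p : ℤ) :=
    ((Nat.prime_iff_prime_int.mp hp).coprime_iff_not_dvd.mpr hN).symm
  obtain ⟨u, v, huv⟩ := hcop
  have key : ∀ c : G, c ^ p = 1 → c = (c ^ N) ^ u := by
    intro c hc
    have h1 : c ^ (u * N + v * (p : ℤ)) = c := by rw [huv, zpow_one]
    rw [zpow_add, zpow_mul' c v, zpow_natCast, hc, one_zpow, mul_one, mul_comm u N, zpow_mul] at h1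
    exact h1.symm
  rw [key a ha, key b hb, h]

/-- in a cyclic group of order `p`, every nontrivial element generates -/
theorem mem_zpowers_of_mem_zpowers {p : ℕ} [Fact p.Prime] {a b c : G} (ha : a ^ p = 1)
    (hb : b ∈ zpowers a) (hb1 : b ≠ 1) (hc : c ∈ zpowers a) : c ∈ zpowers b := by
  have ha1 : a ≠ 1 := by
    rintro rfl
    rw [zpowers_one_eq_bot, mem_bot] at hb
    exact hb1 hb
  have hcard : Nat.card (zpowers a) = p := by
    rw [Nat.card_zpowers]; exact orderOf_eq_prime ha ha1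
  have hne : (⟨b, hb⟩ : zpowers a) ≠ 1 := fun h => hb1 (congrArg Subtype.val h)
  obtain ⟨k, hk⟩ := mem_zpowers_of_prime_card (g' := (⟨c, hc⟩ : zpowers a)) hcard hne
  exact ⟨k, by simpa using congrArg Subtype.val hk⟩

end General

/-- The frame: `S = {x | x ^ p = 1}` is a subgroup `⟨s₂⟩⟨s₁⟩Z`, `Z` central of order `p`, `s₁` central modulo
`Z`, `⁅s₁, s₂⁆ ≠ 1`. -/
structure Frame {R : Type*} [Group R] (p : ℕ) (S Z : Subgroup R) (s₁ s₂ : R) : Prop where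
  memS : ∀ x, x ∈ S ↔ x ^ p = 1
  Zc : Z ≤ center R
  Zcard : Nat.card Z = p
  hs₁ : s₁ ∈ S
  hs₂ : s₂ ∈ S
  hne : ⁅s₁, s₂⁆ ≠ 1
  hcen : ∀ g, ⁅s₁, g⁆ ∈ Z
  hdec : ∀ s ∈ S, ∃ i k : ℤ, ∃ q ∈ Z, s = s₂ ^ i * s₁ ^ k * q

namespace Frame

variable {R : Type*} [Group R] {p : ℕ} [Fact p.Prime] {S Z : Subgroup R} {s₁ s₂ : R}

theorem pow_eq_one (F : Frame p S Z s₁ s₂) {q : R} (hq : q ∈ Z) : q ^ p = 1 := by
  have := pow_card_eq_one' (G := Z) (x := ⟨q, hq⟩)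
  rw [F.Zcard] at this
  exact congrArg Subtype.val this

theorem Z_le_S (F : Frame p S Z s₁ s₂) : Z ≤ S := fun _ hq => (F.memS _).mpr (F.pow_eq_one hq)

theorem cen (F : Frame p S Z s₁ s₂) (g : R) : ⁅s₁, g⁆ ∈ center R := F.Zc (F.hcen g)

theorem conj_mem (F : Frame p S Z s₁ s₂) {s : R} (hs : s ∈ S) (g : R) : g * s * g⁻¹ ∈ S := by
  rw [F.memS, conj_pow, (F.memS s).mp hs, mul_one, mul_inv_cancel]

theorem normal (F : Frame p S Z s₁ s₂) : S.Normal := ⟨fun _ hs g => F.conj_mem hs g⟩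

theorem aut_mem (F : Frame p S Z s₁ s₂) (φ : MulAut R) {s : R} (hs : s ∈ S) : φ s ∈ S := by
  rw [F.memS, ← map_pow, (F.memS s).mp hs, map_one]

/-- `z₀ = ⁅s₁, s₂⁆` generates `Z` -/
theorem mem_zpowers (F : Frame p S Z s₁ s₂) {q : R} (hq : q ∈ Z) : q ∈ zpowers ⁅s₁, s₂⁆ := by
  have hne : (⟨⁅s₁, s₂⁆, F.hcen s₂⟩ : Z) ≠ 1 := fun h => F.hne (congrArg Subtype.val h)
  obtain ⟨k, hk⟩ := mem_zpowers_of_prime_card (g' := (⟨q, hq⟩ : Z)) F.Zcard hne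
  exact ⟨k, by simpa using congrArg Subtype.val hk⟩

/-- any nontrivial element of `Z` generates `Z` -/
theorem mem_zpowers' (F : Frame p S Z s₁ s₂) {q r : R} (hr : r ∈ Z) (hr1 : r ≠ 1) (hq : q ∈ Z) :
    q ∈ zpowers r :=
  mem_zpowers_of_mem_zpowers (F.pow_eq_one (F.hcen s₂)) (F.mem_zpowers hr) hr1 (F.mem_zpowers hq)

theorem orderOf_z (F : Frame p S Z s₁ s₂) : orderOf ⁅s₁, s₂⁆ = p :=
  orderOf_eq_prime (F.pow_eq_one (F.hcen s₂)) F.hne

/-- value of `⁅s₁, ·⁆` in coordinates -/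
theorem comm_coord (F : Frame p S Z s₁ s₂) (i k : ℤ) {q : R} (hq : q ∈ Z) :
    ⁅s₁, s₂ ^ i * s₁ ^ k * q⁆ = ⁅s₁, s₂⁆ ^ i := by
  rw [comm_mul_central_right (F.Zc hq), comm_mul_right_of_central F.cen,
    comm_zpow_right (F.cen _), comm_zpow_right (F.cen _), commutatorElement_self, one_zpow, mul_one]

/-- elements of `S` commuting with `s₁` lie in `⟨s₁⟩Z` -/
theorem form_of_commute (F : Frame p S Z s₁ s₂) {c : R} (hc : c ∈ S) (h : ⁅s₁, c⁆ = 1) :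
    ∃ k : ℤ, ∃ q ∈ Z, c = s₁ ^ k * q := by
  obtain ⟨i, k, q, hq, rfl⟩ := F.hdec c hc
  rw [F.comm_coord i k hq] at h
  have hdvd : (p : ℤ) ∣ i := by
    rw [← F.orderOf_z]; exact orderOf_dvd_iff_zpow_eq_one.mpr h
  obtain ⟨j, rfl⟩ := hdvd
  refine ⟨k, q, hq, ?_⟩
  rw [zpow_mul, zpow_natCast, (F.memS s₂).mp F.hs₂, one_zpow, one_mul]

/-- commutators with an element of `S` lie in `⟨s₁⟩Z` -/
theorem comm_form (F : Frame p S Z s₁ s₂) {s : R} (hs : s ∈ S) (g : R) :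
    ∃ k : ℤ, ∃ q ∈ Z, ⁅s, g⁆ = s₁ ^ k * q := by
  apply F.form_of_commute
  · rw [commutatorElement_def, mul_assoc, mul_assoc, ← mul_assoc g]
    exact S.mul_mem hs (F.conj_mem (S.inv_mem hs) g)
  · exact comm_comm_eq_one_of_central F.cen s g

/-- elements of `⟨s₁⟩Z` have commutators `⁅s₁, g⁆ ^ k` -/
theorem comm_of_form (F : Frame p S Z s₁ s₂) (k : ℤ) {q : R} (hq : q ∈ Z) (g : R) :
    ⁅s₁ ^ k * q, g⁆ = ⁅s₁, g⁆ ^ k := by
  rw [comm_mul_central_left (F.Zc hq), comm_zpow_left (F.cen g)]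

theorem comm_of_form_mem (F : Frame p S Z s₁ s₂) (k : ℤ) {q : R} (hq : q ∈ Z) (g : R) :
    ⁅s₁ ^ k * q, g⁆ ∈ Z := by
  rw [F.comm_of_form k hq]; exact Z.zpow_mem (F.hcen g) k

/-- double commutators starting in `S` lie in `Z` -/
theorem comm_comm_mem (F : Frame p S Z s₁ s₂) {s : R} (hs : s ∈ S) (g h : R) : ⁅⁅s, g⁆, h⁆ ∈ Z := by
  obtain ⟨k, q, hq, e⟩ := F.comm_form hs g
  rw [e]; exact F.comm_of_form_mem k hq h

end Frame

end Cfsg.Agent.Lib.Helper13.RankTwoFrame
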