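import Cfsg.Agent.Lib.Helper13.RankTwoInv
import Cfsg.Agent.Lib.Helper13.RankTwoPow
import Cfsg.Agent.Lib.Helper75.RT_A
import Cfsg.Agent.Lib.Helper75.RT_C
import Cfsg.Agent.Lib.Helper75.RT_D
import Cfsg.Agent.Lib.Helper75.RT_E

set_option autoImplicit false
set_option linter.unusedSectionVars false

/-! Core of S1448: `R = S C_R(S)`. -/

namespace Cfsg.Agent.Lib.Helper13.RankTwoFrame

open Subgroup
open scoped commutatorElement
open Cfsg.Agent.Lib.Helper13.MetaCoprime (commSet)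
open Cfsg.Agent.Lib.Helper75.RT

variable {R : Type*} [Group R] [Finite R] {p : ℕ} [Fact p.Prime] {S Z : Subgroup R} {s₁ s₂ : R}

theorem Frame.comm_mem_all (F : Frame p S Z s₁ s₂) (hp3 : 3 < p) (hR : IsPGroup p R)
    {A : Type*} [Group A] [Finite A] (hodd : Odd (Nat.card A)) (ψ : A →* MulAut R)
    (hgen : closure (commSet ψ) = ⊤) (x : R) : ⁅s₂, x⁆ ∈ Z := by
  by_contra hx
  have hp2 : p ≠ 2 := by omega
  have hE := key_x F hp2 hR hx (F.pow_mem_centralizer hp3)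
    (fun u hu hc => mem_Z_of_mem_centralizer F hu hc)
    (by
      intro c i hc h
      refine F.dvd_of_comm_mem hx ?_ (F.comm_s₂_mem h)
      rw [commutatorElement_eq_one_iff_mul_comm.mpr (mem_centralizer_iff.mp hc s₂ F.hs₂)]
      exact Z.one_mem)
  have hinv : ∀ (a : A) (g : R), ⁅s₁, ψ a g⁆ = ⁅s₁, g⁆ := by
    intro a g
    refine F.rho_invariant hx (fun w s hs => F.mul_pow_eq hp3 w hs)
      (fun g hg => exists_mul_of_comm_mem F g hg) hE (ψ a) (Nat.card A) hodd ?_ g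
    rw [← map_pow, pow_card_eq_one', map_one]
  have hle : closure (commSet ψ) ≤ (cHom s₁ F.cen).ker := by
    rw [closure_le]
    rintro _ ⟨a, y, rfl⟩
    rw [SetLike.mem_coe, MonoidHom.mem_ker, map_mul, map_inv]
    have : cHom s₁ F.cen (ψ a y) = cHom s₁ F.cen y := Subtype.ext (hinv a y)
    rw [this, inv_mul_cancel]
  have h1 : s₂ ∈ (cHom s₁ F.cen).ker := hle (hgen ▸ mem_top s₂)
  exact F.hne (congrArg Subtype.val (MonoidHom.mem_ker.mp h1))

/-- type-level core of S1448 in the case `|Ω₁(R)| = p ^ 3`. -/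
theorem core (hp3 : 3 < p) (hR : IsPGroup p R)
    {A : Type*} [Group A] [Finite A] (hodd : Odd (Nat.card A)) (ψ : A →* MulAut R)
    (hgen : closure (commSet ψ) = ⊤) (S : Subgroup R) (hS : ∀ x, x ∈ S ↔ x ^ p = 1)
    (hcard : Nat.card S = p ^ 3) (hnab : ∃ a ∈ S, ∃ b ∈ S, a * b ≠ b * a) :
    S ⊔ centralizer (S : Set R) = ⊤ ∧ IsCyclic (centralizer (S : Set R)) ∧
      ∀ u, (u ∈ centralizer (S : Set R) ∧ u ^ p = 1) ↔ u ∈ ⁅S, S⁆ := by
  obtain ⟨s₁, s₂, F⟩ := exists_frame hR S hS hcard hnab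
  have hp2 : p ≠ 2 := by omega
  refine ⟨?_, isCyclic_centralizer F hp2 hR, ?_⟩
  · rw [eq_top_iff]
    intro g _
    obtain ⟨c, hc, s, hs, rfl⟩ := exists_mul_of_comm_mem F g (F.comm_mem_all hp3 hR hodd ψ hgen g)
    exact mul_mem (mem_sup_right hc) (mem_sup_left hs)
  · intro u
    rw [F.commutator_eq]
    constructor
    · rintro ⟨h1, h2⟩
      exact mem_inf.mpr ⟨(hS u).mpr h2, h1⟩
    · intro h
      exact ⟨(mem_inf.mp h).2, (hS u).mp (mem_inf.mp h).1⟩

end Cfsg.Agent.Lib.Helper13.RankTwoFrame
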