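import Cfsg.Agent.Lib.Helper13.RankTwoSigma

set_option autoImplicit false
set_option linter.unusedSectionVars false

/-! Odd-order automorphisms fix `⁅s₁, ·⁆` when `R` acts nontrivially on `S / Z`. -/

namespace Cfsg.Agent.Lib.Helper13.RankTwoFrame

open Subgroup
open scoped commutatorElement

namespace Frame

variable {R : Type*} [Group R] [Finite R] {p : ℕ} [Fact p.Prime] {S Z : Subgroup R} {s₁ s₂ : R}

theorem rho_invariant (F : Frame p S Z s₁ s₂) {x : R} (hx : ⁅s₂, x⁆ ∉ Z)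
    (hB : ∀ (w s : R), s ∈ S → (w * s) ^ p = w ^ p)
    (hC : ∀ g, ⁅s₂, g⁆ ∈ Z → ∃ c ∈ centralizer (S : Set R), ∃ s ∈ S, g = c * s)
    (hE : (∀ c ∈ centralizer (S : Set R), Commute x c) ∧
      x ^ Nat.card (centralizer (S : Set R)) ∈ Z ∧ x ^ Nat.card (centralizer (S : Set R)) ≠ 1)
    (φ : MulAut R) (M : ℕ) (hM : Odd M) (hφ : φ ^ M = 1) (g : R) : ⁅s₁, φ g⁆ = ⁅s₁, g⁆ := by
  have hpp : p.Prime := Fact.out
  obtain ⟨hE1, hE2, hE3⟩ := hE
  set e := Nat.card (centralizer (S : Set R)) with he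
  have hZC : Z ≤ centralizer (S : Set R) := F.Zc.trans (center_le_centralizer _)
  obtain ⟨e', he'⟩ : p ∣ e := by
    rw [← F.Zcard]; exact card_dvd_of_le hZC
  -- Step 1
  obtain ⟨m, n, hn, hφx⟩ := F.exists_zpow_mul hx (φ x)
  obtain ⟨c, hc, s, hs, hn'⟩ := hC n hn
  have hce : c ^ e = 1 := by
    have := pow_card_eq_one' (G := centralizer (S : Set R)) (x := ⟨c, hc⟩)
    exact congrArg Subtype.val this
  have hcomm : Commute (x ^ m) c := (hE1 c hc).zpow_left m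
  have h1 : (φ x) ^ e = (x ^ e) ^ m := by
    rw [hφx, hn', ← mul_assoc, he', pow_mul, hB _ s hs, hcomm.mul_pow, (hcomm.pow_pow p p).mul_pow,
      ← pow_mul, ← pow_mul, ← he', hce, mul_one, ← zpow_natCast, ← zpow_natCast, ← zpow_mul,
      ← zpow_mul, mul_comm]
  have hZ : ∀ ζ ∈ Z, φ ζ = ζ ^ m := by
    intro ζ hζ
    obtain ⟨i, rfl⟩ := F.mem_zpowers' hE2 hE3 hζ
    simp only
    rw [map_zpow, map_pow, h1, ← zpow_mul, ← zpow_mul, mul_comm]
  have hpm : ¬ (p : ℤ) ∣ m := by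
    rintro ⟨m', rfl⟩
    apply hE3
    have := hZ _ hE2
    rw [zpow_mul, zpow_natCast, F.pow_eq_one hE2, one_zpow] at this
    exact (map_eq_one_iff φ φ.injective).mp this
  -- Step 2
  obtain ⟨k₂, b, q, hq, hφs⟩ := F.hdec (φ s₂) (F.aut_mem φ F.hs₂)
  obtain ⟨j, q₀, hq₀, hj⟩ := F.comm_form F.hs₂ x
  have hpj : ¬ (p : ℤ) ∣ j := by
    rintro ⟨j', rfl⟩
    apply hx
    rw [hj, zpow_mul, zpow_natCast, (F.memS s₁).mp F.hs₁, one_zpow, one_mul]
    exact hq₀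
  obtain ⟨q', hq', hbil⟩ := F.comm_bilin x hn k₂ b m hq
  have hq₀c : Commute (s₁ ^ j) q₀ := (mem_center_iff.mp (F.Zc hq₀) _)
  have h2 : φ ⁅s₂, x⁆ = s₁ ^ (j * (k₂ * m)) * (q₀ ^ (k₂ * m) * q') := by
    rw [map_commutatorElement, hφs, hφx, hbil, hj, hq₀c.mul_zpow, ← zpow_mul, mul_assoc]
  have star : ∀ g : R, ⁅s₁, g⁆ = ⁅s₁, φ g⁆ ^ k₂ := by
    intro g
    have h3 : φ ⁅⁅s₂, x⁆, g⁆ = ⁅φ ⁅s₂, x⁆, φ g⁆ := map_commutatorElement φ _ _
    rw [h2, F.comm_of_form _ (Z.mul_mem (Z.zpow_mem hq₀ _) hq'), hj, F.comm_of_form j hq₀,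
      hZ _ (Z.zpow_mem (F.hcen g) j), ← zpow_mul] at h3
    apply zpow_cancel hpp (F.pow_eq_one (F.hcen g))
      (F.pow_eq_one (Z.zpow_mem (F.hcen (φ g)) k₂)) (N := j * m)
    · intro h
      rcases (Nat.prime_iff_prime_int.mp hpp).dvd_or_dvd h with h | h
      · exact hpj h
      · exact hpm h
    · rw [h3, ← zpow_mul]
      congr 1
      ring
  -- Step 3
  have hsq : ∀ r ∈ Z, r ^ (k₂ * k₂) = r := by
    intro r hr
    obtain ⟨i, rfl⟩ := F.mem_zpowers hr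
    simp only
    have := star s₂
    rw [hφs, F.comm_coord k₂ b hq, ← zpow_mul] at this
    rw [← zpow_mul, mul_comm, zpow_mul, ← this]
  -- Step 4
  have iter : ∀ (i : ℕ) (g : R), ⁅s₁, g⁆ = ⁅s₁, (φ ^ i) g⁆ ^ (k₂ ^ i) := by
    intro i
    induction i with
    | zero => intro g; simp
    | succ i ih =>
      intro g
      rw [ih g, star ((φ ^ i) g), ← zpow_mul, pow_succ' φ, MulAut.mul_apply, pow_succ']
  have hpow : ∀ (l : ℕ), ∀ r ∈ Z, r ^ ((k₂ * k₂) ^ l) = r := by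
    intro l
    induction l with
    | zero => intro r _; simp
    | succ l ih =>
      intro r hr
      rw [pow_succ, zpow_mul, ih r hr, hsq r hr]
  have hfix : ∀ g : R, ⁅s₁, g⁆ = ⁅s₁, g⁆ ^ k₂ := by
    intro g
    obtain ⟨l, rfl⟩ := hM
    have := iter (2 * l + 1) g
    rw [hφ, MulAut.one_apply, pow_succ, pow_mul, pow_two, zpow_mul, hpow l _ (F.hcen g)] at this
    exact this
  rw [star g, ← hfix (φ g)]

end Frame

end Cfsg.Agent.Lib.Helper13.RankTwoFrame
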