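import Cfsg.Agent.Lib.Helper13.RankTwoCore
import Cfsg.Agent.Lib.Helper3.RankTwo
import Cfsg.Agent.S0639
import Cfsg.Agent.S0640

set_option autoImplicit false
set_option linter.unusedSectionVars false

/-! Type-level form of S1448. -/

namespace Cfsg.Agent.Lib.Helper13.RankTwoFrame

open Subgroup
open scoped commutatorElement
open Cfsg.Agent.Lib.Helper13.MetaCoprime (commSet)

universe u

variable {R : Type u} [Group R] [Finite R] {p : ℕ} [Fact p.Prime]

theorem three_lt (hp : p ≠ 2) (hR : IsPGroup p R) (hne : Nontrivial R) (hr : Cfsg.PRankLE p 2 R)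
    {A : Type*} [Group A] [Finite A] (hcop : (Nat.card A).Coprime p) (hodd : Odd (Nat.card A))
    (ψ : A →* MulAut R) (hgen : closure (commSet ψ) = ⊤) : 3 < p := by
  have hex : ∃ a, ψ a ≠ 1 := by
    by_contra h
    push Not at h
    have h1 : closure (commSet ψ) ≤ ⊥ := by
      rw [closure_le]
      rintro _ ⟨a, y, rfl⟩
      rw [h a]
      simp
    rw [hgen] at h1
    obtain ⟨x, hx⟩ := exists_ne (1 : R)
    exact hx (mem_bot.mp (h1 (mem_top x)))
  obtain ⟨a, ha⟩ := hex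
  have ho : orderOf (ψ a) ≠ 1 := fun h => ha (orderOf_eq_one_iff.mp h)
  obtain ⟨q, hq, hqd⟩ := Nat.exists_prime_and_dvd ho
  have hqA : q ∣ Nat.card A := (hqd.trans (orderOf_map_dvd ψ a)).trans (orderOf_dvd_natCard a)
  have hqp : q ≠ p := by
    rintro rfl
    have := Nat.Coprime.eq_one_of_dvd hcop.symm hqA
    exact hq.one_lt.ne' this
  have hq2 : q ≠ 2 := by
    rintro rfl
    exact (Nat.not_even_iff_odd.mpr hodd) (even_iff_two_dvd.mpr hqA)
  have := (Cfsg.Agent.S0640.result hp hR hr q hq hqp (hqd.trans (orderOf_dvd_natCard _))).2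
  have := hq.two_le
  omega

theorem main (hp : p ≠ 2) (hR : IsPGroup p R) (hne : Nontrivial R) (hr : Cfsg.PRankLE p 2 R)
    {A : Type*} [Group A] [Finite A] (hcop : (Nat.card A).Coprime p) (hodd : Odd (Nat.card A))
    (ψ : A →* MulAut R) (hgen : closure (commSet ψ) = ⊤) :
    3 < p ∧ (IsMulCommutative R ∨ ∃ S C : Subgroup R, S ⊔ C = ⊤ ∧ (∀ a ∈ S, ∀ b ∈ C, a * b = b * a) ∧
      (∃ a ∈ S, ∃ b ∈ S, a * b ≠ b * a) ∧ Nat.card S = p ^ 3 ∧ (∀ x ∈ S, x ^ p = 1) ∧ IsCyclic C ∧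
      ∀ u, (u ∈ C ∧ u ^ p = 1) ↔ u ∈ ⁅S, S⁆) := by
  have hpp : p.Prime := Fact.out
  have hp3 : 3 < p := three_lt hp hR hne hr hcop hodd ψ hgen
  refine ⟨hp3, ?_⟩
  have hrk : ∀ E : Subgroup R, (∀ a ∈ E, ∀ b ∈ E, a * b = b * a) → (∀ a ∈ E, a ^ p = 1) →
      Nat.card E ≤ p ^ 2 := by
    intro E hE hE'
    exact hr E ⟨⟨fun a b => Subtype.ext (hE a a.2 b b.2)⟩⟩ hE'
  have hmul := Cfsg.Agent.Lib.Helper3.rank_two_mul_aux hp3 (Nat.card R) R le_rfl hR hrk
  let S : Subgroup R :=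
    { carrier := {x | x ^ p = 1}
      mul_mem' := fun {a b} ha hb => hmul a b ha hb
      one_mem' := one_pow p
      inv_mem' := fun {a} ha => by
        show a⁻¹ ^ p = 1
        rw [inv_pow, show a ^ p = 1 from ha, inv_one] }
  have hS : ∀ x, x ∈ S ↔ x ^ p = 1 := fun x => Iff.rfl
  have hScard : Nat.card S ≤ p ^ 3 := by
    apply Cfsg.Agent.Lib.Helper3.card_le_of_exponent_rank_two hp (hR.to_subgroup S)
    · intro g
      exact Subtype.ext (show (g : R) ^ p = 1 from g.2)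
    · intro E hEc
      rw [← card_map_of_injective S.subtype_injective]
      apply hrk
      · rintro _ ⟨a, ha, rfl⟩ _ ⟨b, hb, rfl⟩
        exact congrArg Subtype.val (hEc a ha b hb)
      · rintro _ ⟨a, _, rfl⟩
        exact a.2
  by_cases hle : Nat.card S ≤ p ^ 2
  · left
    have hO : Cfsg.omegaOne p (⊤ : Subgroup R) = S := by
      show closure {x : R | x ∈ (⊤ : Subgroup R) ∧ x ^ p = 1} = S
      have : {x : R | x ∈ (⊤ : Subgroup R) ∧ x ^ p = 1} = (S : Set R) := by
        ext x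
        simp [hS]
      rw [this, closure_eq]
    have hm : Cfsg.IsMetacyclic R := Cfsg.Agent.S0639.result hp3 hR (by rw [hO]; exact hle)
    exact (_root_.commutator_eq_bot_iff (G := R)).mp
      (Cfsg.Agent.Lib.Helper13.MetaCoprime.commutator_eq_bot_of_fpf hp hR hm hcop ψ hgen)
  · right
    push Not at hle
    obtain ⟨k, hk⟩ := (hR.to_subgroup S).exists_card_eq
    have hk3 : Nat.card S = p ^ 3 := by
      rw [hk] at hle hScard ⊢
      have h1 := (Nat.pow_lt_pow_iff_right hpp.one_lt).mp hle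
      have h2 := (Nat.pow_le_pow_iff_right hpp.one_lt).mp hScard
      congr 1
      omega
    have hnab : ∃ a ∈ S, ∃ b ∈ S, a * b ≠ b * a := by
      by_contra h
      push Not at h
      have := hrk S h (fun a ha => ha)
      omega
    obtain ⟨h1, h2, h3⟩ := core hp3 hR hodd ψ hgen S hS hk3 hnab
    refine ⟨S, centralizer (S : Set R), h1, ?_, hnab, hk3, fun x hx => hx, h2, h3⟩
    intro a ha b hb
    exact mem_centralizer_iff.mp hb a ha

end Cfsg.Agent.Lib.Helper13.RankTwoFrame
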