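import Cfsg.Agent.Lib.Helper13.RankTwoMain
import Cfsg.Agent.Lib.Helper3.RankTwoAut

set_option autoImplicit false
set_option linter.unusedSectionVars false

/-! Variant of the type-level S1448 with explicit centralizer, and the order `p ^ 3` consequence used in
S1454. -/

namespace Cfsg.Agent.Lib.Helper13.RankTwoFrame

open Subgroup
open scoped commutatorElement
open Cfsg.Agent.Lib.Helper13.MetaCoprime (commSet)

universe u

variable {R : Type u} [Group R] [Finite R] {p : ℕ} [Fact p.Prime]

theorem main' (hp : p ≠ 2) (hR : IsPGroup p R) (hne : Nontrivial R) (hr : Cfsg.PRankLE p 2 R)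
    {A : Type*} [Group A] [Finite A] (hcop : (Nat.card A).Coprime p) (hodd : Odd (Nat.card A))
    (ψ : A →* MulAut R) (hgen : closure (commSet ψ) = ⊤) :
    IsMulCommutative R ∨ ∃ S : Subgroup R, (∀ x, x ∈ S ↔ x ^ p = 1) ∧ Nat.card S = p ^ 3 ∧
      S ⊔ centralizer (S : Set R) = ⊤ ∧ IsCyclic (centralizer (S : Set R)) := by
  have hpp : p.Prime := Fact.out
  have hp3 : 3 < p := three_lt hp hR hne hr hcop hodd ψ hgen
  have hrk : ∀ E : Subgroup R, (∀ a ∈ E, ∀ b ∈ E, a * b = b * a) → (∀ a ∈ E, a ^ p = 1) →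
      Nat.card E ≤ p ^ 2 := by
    intro E hE hE'
    exact hr E ⟨⟨fun a b => Subtype.ext (hE a a.2 b b.2)⟩⟩ hE'
  have hmul := Cfsg.Agent.Lib.Helper3.rank_two_mul_aux hp3 (Nat.card R) R le_rfl hR hrk
  let S : Subgroup R :=
    { carrier := {x | x ^ p = 1}
      mul_mem' := fun {a b} ha hb => hmul a b ha hb
      one_mem' := one_pow p
      inv_mem' := fun {a} ha => by
        show a⁻¹ ^ p = 1
        rw [inv_pow, show a ^ p = 1 from ha, inv_one] }
  have hS : ∀ x, x ∈ S ↔ x ^ p = 1 := fun x => Iff.rfl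
  have hScard : Nat.card S ≤ p ^ 3 := by
    apply Cfsg.Agent.Lib.Helper3.card_le_of_exponent_rank_two hp (hR.to_subgroup S)
    · intro g
      exact Subtype.ext (show (g : R) ^ p = 1 from g.2)
    · intro E hEc
      rw [← card_map_of_injective S.subtype_injective]
      apply hrk
      · rintro _ ⟨a, ha, rfl⟩ _ ⟨b, hb, rfl⟩
        exact congrArg Subtype.val (hEc a ha b hb)
      · rintro _ ⟨a, _, rfl⟩
        exact a.2
  by_cases hle : Nat.card S ≤ p ^ 2
  · left
    have hO : Cfsg.omegaOne p (⊤ : Subgroup R) = S := by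
      show closure {x : R | x ∈ (⊤ : Subgroup R) ∧ x ^ p = 1} = S
      have : {x : R | x ∈ (⊤ : Subgroup R) ∧ x ^ p = 1} = (S : Set R) := by
        ext x
        simp [hS]
      rw [this, closure_eq]
    have hm : Cfsg.IsMetacyclic R := Cfsg.Agent.S0639.result hp3 hR (by rw [hO]; exact hle)
    exact (_root_.commutator_eq_bot_iff (G := R)).mp
      (Cfsg.Agent.Lib.Helper13.MetaCoprime.commutator_eq_bot_of_fpf hp hR hm hcop ψ hgen)
  · right
    push Not at hle
    obtain ⟨k, hk⟩ := (hR.to_subgroup S).exists_card_eq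
    have hk3 : Nat.card S = p ^ 3 := by
      rw [hk] at hle hScard ⊢
      have h1 := (Nat.pow_lt_pow_iff_right hpp.one_lt).mp hle
      have h2 := (Nat.pow_le_pow_iff_right hpp.one_lt).mp hScard
      congr 1
      omega
    have hnab : ∃ a ∈ S, ∃ b ∈ S, a * b ≠ b * a := by
      by_contra h
      push Not at h
      have := hrk S h (fun a ha => ha)
      omega
    obtain ⟨h1, h2, -⟩ := core hp3 hR hodd ψ hgen S hS hk3 hnab
    exact ⟨S, hS, hk3, h1, h2⟩

/-- an automorphism of a cyclic `p`-group whose order is a prime not dividing `p (p - 1)` is trivial -/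
theorem aut_cyclic_eq_one {Y : Type*} [Group Y] [Finite Y] (hY : IsPGroup p Y) (hc : IsCyclic Y)
    {q : ℕ} (hq : q.Prime) (hqn : ¬ q ∣ p * (p - 1)) (α : MulAut Y) (hα : α ^ q = 1) : α = 1 := by
  have hpp : p.Prime := Fact.out
  have h1 : orderOf α ∣ q := orderOf_dvd_of_pow_eq_one hα
  rcases (Nat.dvd_prime hq).mp h1 with h | h
  · exact orderOf_eq_one_iff.mp h
  · exfalso
    have h2 : q ∣ Nat.card (MulAut Y) := h ▸ orderOf_dvd_natCard α
    obtain ⟨k, hk⟩ := hY.exists_card_eq
    rw [hc.card_mulAut, hk] at h2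
    rcases Nat.eq_zero_or_pos k with rfl | hk0
    · rw [pow_zero, Nat.totient_one] at h2
      exact hq.one_lt.ne' (Nat.dvd_one.mp h2)
    · rw [Nat.totient_prime_pow hpp hk0] at h2
      rcases (Nat.Prime.dvd_mul hq).mp h2 with h3 | h3
      · exact hqn (Dvd.dvd.mul_right (hq.dvd_of_dvd_pow h3) _)
      · exact hqn (Dvd.dvd.mul_left h3 _)

/-- B-G 4.x (last part of S1454): `|A| = q` prime not dividing `p (p - 1)`, `R = [R, A]` nonabelian of rank at
most two: `|R| = p ^ 3`. -/
theorem card_eq_cube (hp : p ≠ 2) (hR : IsPGroup p R) (hr : Cfsg.PRankLE p 2 R)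
    {A : Type*} [Group A] [Finite A] (hq : (Nat.card A).Prime) (hqn : ¬ Nat.card A ∣ p * (p - 1))
    (hodd : Odd (Nat.card A)) (ψ : A →* MulAut R) (hgen : closure (commSet ψ) = ⊤)
    (hnab : ¬ IsMulCommutative R) : Nat.card R = p ^ 3 := by
  have hpp : p.Prime := Fact.out
  have hcop : (Nat.card A).Coprime p := by
    rw [Nat.coprime_primes hq hpp]
    intro h
    exact hqn (h ▸ Dvd.intro _ rfl)
  have hne : Nontrivial R := by
    by_contra h
    rw [not_nontrivial_iff_subsingleton] at h
    exact hnab ⟨⟨fun a b => Subsingleton.elim _ _⟩⟩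
  rcases main' hp hR hne hr hcop hodd ψ hgen with h | ⟨S, hS, hcard, hsup, hcyc⟩
  · exact absurd h hnab
  set C := centralizer (S : Set R) with hC
  have hCcomm : ∀ a ∈ C, ∀ b ∈ C, a * b = b * a := by
    intro a ha b hb
    have := hcyc.isMulCommutative.is_comm.comm ⟨a, ha⟩ ⟨b, hb⟩
    exact congrArg Subtype.val this
  have hCcen : C ≤ center R := by
    intro c hc
    have hle : S ⊔ C ≤ centralizer {c} := by
      rw [sup_le_iff]
      constructor
      · intro s hs
        rw [mem_centralizer_singleton_iff]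
        exact (mem_centralizer_iff.mp hc s hs)
      · intro b hb
        rw [mem_centralizer_singleton_iff]
        exact hCcomm b hb c hc
    rw [mem_center_iff]
    intro g
    have := hle (hsup ▸ mem_top g)
    rw [mem_centralizer_singleton_iff] at this
    exact this
  have hCeq : C = center R := le_antisymm hCcen (center_le_centralizer _)
  have hcycZ : IsCyclic (center R) := hCeq ▸ hcyc
  have hfix : ∀ (a : A) (x : R), x ∈ C → ψ a x = x := by
    intro a x hx
    have hx' : x ∈ center R := hCcen hx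
    have h1 : Cfsg.Agent.Lib.Helper3.resChar (center R) (ψ a) = 1 := by
      apply aut_cyclic_eq_one (hR.to_subgroup _) hcycZ hq hqn
      rw [← map_pow, ← map_pow, pow_card_eq_one', map_one, map_one]
    have h2 := congrArg (fun f : MulAut (center R) => ((f ⟨x, hx'⟩ : center R) : R)) h1
    exact h2
  have hCn : C.Normal := Cfsg.Agent.Lib.Helper3.normal_of_le_center' hCcen
  have hdec : ∀ g : R, ∃ s ∈ S, ∃ c ∈ C, g = s * c := by
    intro g
    have h1 : g ∈ ((S ⊔ C : Subgroup R) : Set R) := hsup ▸ mem_top g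
    rw [mul_normal] at h1
    obtain ⟨s, hs, c, hc, rfl⟩ := Set.mem_mul.mp h1
    exact ⟨s, hs, c, hc, rfl⟩
  have hder : commutator R ≤ S := by
    rw [commutator_def, commutator_le]
    intro g _ h _
    obtain ⟨s, hs, c, hc, rfl⟩ := hdec g
    obtain ⟨s', hs', c', hc', rfl⟩ := hdec h
    rw [comm_mul_central_left (hCcen hc), comm_mul_central_right (hCcen hc')]
    exact commutator_le.mp (commutator_le_self S) s hs s' hs'
  have hCS : C ≤ S := by
    intro x hx
    apply Cfsg.Agent.Lib.Helper13.MetaCoprime.mem_of_forall_comm_mem hR hcop ψ hgen S hder x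
    intro a
    rw [hfix a x hx, inv_mul_cancel]
    exact S.one_mem
  have : S = ⊤ := by rw [← hsup, sup_eq_left.mpr hCS]
  rw [← hcard, this, card_top]

end Cfsg.Agent.Lib.Helper13.RankTwoFrame
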