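import Cfsg.Agent.Lib.Helper13.RankTwoFrame
import Cfsg.Agent.Lib.Helper3.NormalSeries

set_option autoImplicit false
set_option linter.unusedSectionVars false

/-! The homomorphism `g ↦ ⁅s₂, g⁆ mod Z` of a frame, and its consequences. -/

namespace Cfsg.Agent.Lib.Helper13.RankTwoFrame

open Subgroup
open scoped commutatorElement

namespace Frame

variable {R : Type*} [Group R] {p : ℕ} [Fact p.Prime] {S Z : Subgroup R} {s₁ s₂ : R}

theorem normalZ (F : Frame p S Z s₁ s₂) : Z.Normal := Cfsg.Agent.Lib.Helper3.normal_of_le_center' F.Zc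

theorem mk_s₁_mem_center (F : Frame p S Z s₁ s₂) [Z.Normal] :
    QuotientGroup.mk' Z s₁ ∈ center (R ⧸ Z) := by
  rw [mem_center_iff]
  intro g
  obtain ⟨g, rfl⟩ := QuotientGroup.mk'_surjective Z g
  symm
  rw [← commutatorElement_eq_one_iff_mul_comm, ← map_commutatorElement]
  exact (QuotientGroup.eq_one_iff _).mpr (F.hcen g)

theorem mk_comm_mem_center (F : Frame p S Z s₁ s₂) [Z.Normal] (g : R ⧸ Z) :
    ⁅QuotientGroup.mk' Z s₂, g⁆ ∈ center (R ⧸ Z) := by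
  obtain ⟨g, rfl⟩ := QuotientGroup.mk'_surjective Z g
  obtain ⟨k, q, hq, e⟩ := F.comm_form F.hs₂ g
  rw [← map_commutatorElement, e, map_mul, map_zpow,
    show QuotientGroup.mk' Z q = 1 from (QuotientGroup.eq_one_iff _).mpr hq, mul_one]
  exact zpow_mem F.mk_s₁_mem_center k

/-- `g ↦ ⁅s₂, g⁆ mod Z` -/
def sigma (F : Frame p S Z s₁ s₂) [Z.Normal] : R →* center (R ⧸ Z) :=
  (cHom (QuotientGroup.mk' Z s₂) F.mk_comm_mem_center).comp (QuotientGroup.mk' Z)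

theorem sigma_coe (F : Frame p S Z s₁ s₂) [Z.Normal] (g : R) :
    ((F.sigma g : center (R ⧸ Z)) : R ⧸ Z) = QuotientGroup.mk' Z ⁅s₂, g⁆ := by
  rw [map_commutatorElement]; rfl

theorem sigma_eq_one_iff (F : Frame p S Z s₁ s₂) [Z.Normal] (g : R) :
    F.sigma g = 1 ↔ ⁅s₂, g⁆ ∈ Z := by
  rw [← QuotientGroup.eq_one_iff, ← QuotientGroup.mk'_apply, ← F.sigma_coe]
  exact ⟨fun h => by rw [h]; rfl, fun h => Subtype.ext h⟩

theorem sigma_coe_mem (F : Frame p S Z s₁ s₂) [Z.Normal] (g : R) :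
    ((F.sigma g : center (R ⧸ Z)) : R ⧸ Z) ∈ zpowers (QuotientGroup.mk' Z s₁) := by
  obtain ⟨k, q, hq, e⟩ := F.comm_form F.hs₂ g
  rw [F.sigma_coe, e, map_mul, map_zpow,
    show QuotientGroup.mk' Z q = 1 from (QuotientGroup.eq_one_iff _).mpr hq, mul_one]
  exact zpow_mem (Subgroup.mem_zpowers _) k

theorem sigma_pow (F : Frame p S Z s₁ s₂) [Z.Normal] (g : R) : F.sigma g ^ p = 1 := by
  apply Subtype.ext
  obtain ⟨k, hk⟩ := F.sigma_coe_mem g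
  simp only at hk
  rw [Subgroup.coe_pow, ← hk, ← zpow_natCast, ← zpow_mul, mul_comm, zpow_mul, zpow_natCast,
    ← map_pow, (F.memS s₁).mp F.hs₁, map_one, one_zpow]
  rfl

/-- commutators inside `S` lie in `Z` -/
theorem comm_s₂_mem (F : Frame p S Z s₁ s₂) {s : R} (hs : s ∈ S) : ⁅s₂, s⁆ ∈ Z := by
  have := F.normalZ
  obtain ⟨i, k, q, hq, rfl⟩ := F.hdec s hs
  rw [← F.sigma_eq_one_iff, map_mul, map_mul, map_zpow, map_zpow]
  have h1 : F.sigma s₂ = 1 := by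
    rw [F.sigma_eq_one_iff, commutatorElement_self]; exact Z.one_mem
  have h2 : F.sigma s₁ = 1 := by
    rw [F.sigma_eq_one_iff, ← commutatorElement_inv]; exact Z.inv_mem (F.hcen s₂)
  have h3 : F.sigma q = 1 := by
    rw [F.sigma_eq_one_iff, commutatorElement_eq_one_iff_mul_comm.mpr (mem_center_iff.mp (F.Zc hq) s₂)]
    exact Z.one_mem
  rw [h1, h2, h3]; simp

/-- RUNG F: `R = ⟨x⟩ K`. -/
theorem exists_zpow_mul (F : Frame p S Z s₁ s₂) {x : R} (hx : ⁅s₂, x⁆ ∉ Z) (y : R) :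
    ∃ m : ℤ, ∃ n, ⁅s₂, n⁆ ∈ Z ∧ y = x ^ m * n := by
  have := F.normalZ
  have hx1 : ((F.sigma x : center (R ⧸ Z)) : R ⧸ Z) ≠ 1 := by
    intro h
    exact hx ((F.sigma_eq_one_iff x).mp (Subtype.ext h))
  have hs1 : (QuotientGroup.mk' Z s₁) ^ p = 1 := by
    rw [← map_pow, (F.memS s₁).mp F.hs₁, map_one]
  obtain ⟨m, hm⟩ := mem_zpowers_of_mem_zpowers hs1 (F.sigma_coe_mem x) hx1 (F.sigma_coe_mem y)
  have hm' : F.sigma x ^ m = F.sigma y := Subtype.ext (by simpa using hm)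
  refine ⟨m, (x ^ m)⁻¹ * y, ?_, by group⟩
  rw [← F.sigma_eq_one_iff, map_mul, map_inv, map_zpow, hm', inv_mul_cancel]

/-- RUNG E': exponents. -/
theorem dvd_of_comm_mem (F : Frame p S Z s₁ s₂) {x : R} (hx : ⁅s₂, x⁆ ∉ Z) {c : R} (hc : ⁅s₂, c⁆ ∈ Z)
    {i : ℤ} (h : ⁅s₂, c * x ^ i⁆ ∈ Z) : (p : ℤ) ∣ i := by
  have := F.normalZ
  rw [← F.sigma_eq_one_iff] at hc h
  rw [map_mul, hc, one_mul, map_zpow] at h
  have hx1 : F.sigma x ≠ 1 := fun h => hx ((F.sigma_eq_one_iff x).mp h)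
  rw [← orderOf_eq_prime (F.sigma_pow x) hx1]
  exact orderOf_dvd_iff_zpow_eq_one.mpr h

/-- RUNG G: bilinearity modulo `Z`. -/
theorem comm_bilin (F : Frame p S Z s₁ s₂) (x : R) {n : R} (hn : ⁅s₂, n⁆ ∈ Z) (k b m : ℤ) {q : R}
    (hq : q ∈ Z) : ∃ q' ∈ Z, ⁅s₂ ^ k * s₁ ^ b * q, x ^ m * n⁆ = ⁅s₂, x⁆ ^ (k * m) * q' := by
  have := F.normalZ
  have key : QuotientGroup.mk' Z ⁅s₂ ^ k * s₁ ^ b * q, x ^ m * n⁆ =
      QuotientGroup.mk' Z (⁅s₂, x⁆ ^ (k * m)) := by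
    rw [map_commutatorElement, map_mul, map_mul,
      show QuotientGroup.mk' Z q = 1 from (QuotientGroup.eq_one_iff _).mpr hq, mul_one, map_zpow,
      map_zpow, comm_mul_central_left (zpow_mem F.mk_s₁_mem_center b),
      comm_zpow_left (F.mk_comm_mem_center _), ← map_commutatorElement, ← F.sigma_coe, map_mul,
      (F.sigma_eq_one_iff n).mpr hn, mul_one, map_zpow, map_zpow, ← F.sigma_coe, mul_comm k m,
      zpow_mul]
    rfl
  refine ⟨(⁅s₂, x⁆ ^ (k * m))⁻¹ * ⁅s₂ ^ k * s₁ ^ b * q, x ^ m * n⁆, ?_, by group⟩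
  exact QuotientGroup.eq.mp key.symm

end Frame

end Cfsg.Agent.Lib.Helper13.RankTwoFrame
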